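import Mathlib
import Cfsg.Agent.Lib.H5.ZStar
import Cfsg.Agent.Lib.H5.Centric
import Cfsg.Agent.Lib.H1.Cores
import Cfsg.Agent.Lib.H38.PPrime

set_option autoImplicit false

/-! Involutory automorphisms fixing a Sylow `2`-subgroup pointwise and acting locally like odd
elements are trivial if `O(G) = 1`. -/

namespace H39.AutZ

universe u

open Subgroup Cfsg H38.Basic
open scoped commutatorElement

variable {G : Type u} [Group G] [Finite G]

theorem aut_eq_one (hO : ∀ N : Subgroup G, N.Normal → Odd (Nat.card N) → N = ⊥) (S : Sylow 2 G)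
    (σ : MulAut G) (hσ2 : σ * σ = 1) (hσS : ∀ s ∈ (S : Subgroup G), σ s = s)
    (hloc : ∀ Q : Subgroup G, Q ≤ (S : Subgroup G) →
      IsSyl 2 (Q ⊓ centralizer (Q : Set G)) (centralizer (Q : Set G)) →
      ∀ n ∈ normalizer (Q : Set G), ∃ O : Subgroup G, ¬ 2 ∣ Nat.card O ∧ n⁻¹ * σ n ∈ O) :
    σ = 1 := by
  classical
  by_contra hσ1
  haveI : Fact (Nat.Prime 2) := ⟨Nat.prime_two⟩
  have hord : orderOf σ = 2 := orderOf_eq_prime (by rw [pow_two]; exact hσ2) hσ1
  haveI : Finite (zpowers σ) := inferInstance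
  let X := G ⋊[(zpowers σ).subtype] (zpowers σ)
  haveI : Finite X := Finite.of_equiv _ SemidirectProduct.equivProd.symm
  let ι : G →* X := SemidirectProduct.inl
  let t : X := SemidirectProduct.inr ⟨σ, mem_zpowers σ⟩
  have hιinj : Function.Injective ι := SemidirectProduct.inl_injective
  have htι : ∀ g, t * ι g * t⁻¹ = ι (σ g) := by
    intro g
    have := SemidirectProduct.inl_aut (φ := (zpowers σ).subtype) ⟨σ, mem_zpowers σ⟩ g
    rw [map_inv] at this
    exact this.symm
  let N : Subgroup X := ι.range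
  haveI hNn : N.Normal := by
    have : N = (SemidirectProduct.rightHom : X →* _).ker := SemidirectProduct.range_inl_eq_ker_rightHom
    rw [this]; infer_instance
  have hfix : ∀ (z : zpowers σ) (s : G), s ∈ (S : Subgroup G) → (z : MulAut G) s = s := by
    rintro ⟨z, hz⟩ s hs
    have h1 : zpowers σ ≤ MulAction.stabilizer (MulAut G) s := by
      rw [zpowers_le]; exact hσS s hs
    exact h1 hz
  -- the Sylow subgroup
  let P₀ : Subgroup X :=
    { carrier := {x | x.left ∈ (S : Subgroup G)}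
      mul_mem' := by
        intro a b ha hb
        change (a * b).left ∈ (S : Subgroup G)
        rw [SemidirectProduct.mul_left]
        have h1 : ((zpowers σ).subtype a.right) b.left = b.left := hfix a.right _ hb
        rw [h1]
        exact mul_mem ha hb
      one_mem' := by
        change (1 : X).left ∈ (S : Subgroup G)
        rw [SemidirectProduct.one_left]; exact one_mem _
      inv_mem' := by
        intro a ha
        change (a⁻¹).left ∈ (S : Subgroup G)
        rw [SemidirectProduct.inv_left]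
        have h1 : ((zpowers σ).subtype a.right⁻¹) a.left⁻¹ = a.left⁻¹ :=
          hfix a.right⁻¹ _ (inv_mem ha)
        rw [h1]
        exact inv_mem ha }
  have hmP : ∀ x : X, x ∈ P₀ ↔ x.left ∈ (S : Subgroup G) := fun x => Iff.rfl
  have hcZ : Nat.card (zpowers σ) = 2 := by rw [Nat.card_zpowers, hord]
  have hcX : Nat.card X = Nat.card G * 2 := by
    rw [← hcZ, ← Nat.card_prod]
    exact Nat.card_congr SemidirectProduct.equivProd
  have hcP : Nat.card P₀ = Nat.card (S : Subgroup G) * 2 := by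
    have h1 : Nat.card P₀ = Nat.card (↥(S : Subgroup G) × ↥(zpowers σ)) := Nat.card_congr
      { toFun := fun x => ((⟨x.1.left, x.2⟩ : ↥(S : Subgroup G)), x.1.right)
        invFun := fun y => ⟨(⟨(y.1 : G), y.2⟩ : X), y.1.2⟩
        left_inv := fun x => rfl
        right_inv := fun y => rfl }
    have h2 : Nat.card (↥(S : Subgroup G) × ↥(zpowers σ)) =
        Nat.card (S : Subgroup G) * Nat.card (zpowers σ) := Nat.card_prod _ _
    rw [h1, h2, hcZ]
  have hPp : IsPGroup 2 P₀ := by
    obtain ⟨k, hk⟩ := IsPGroup.iff_card.1 S.2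
    exact IsPGroup.of_card (n := k + 1) (by rw [hcP, hk, pow_succ])
  have hPi : ¬ 2 ∣ P₀.index := by
    have h1 := P₀.card_mul_index
    rw [hcP, hcX] at h1
    have h2 := (S : Subgroup G).card_mul_index
    have h3 : P₀.index = (S : Subgroup G).index := by
      rw [← h2] at h1
      have h4 : Nat.card (S : Subgroup G) * 2 * P₀.index =
          Nat.card (S : Subgroup G) * 2 * (S : Subgroup G).index := by rw [h1]; ring
      exact Nat.eq_of_mul_eq_mul_left (by have := Nat.card_pos (α := (S : Subgroup G)); omega) h4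
    rw [h3]
    exact S.not_dvd_index
  let P : Sylow 2 X := hPp.toSylow hPi
  have hPc : (P : Subgroup X) = P₀ := rfl
  have htP : t ∈ (P : Subgroup X) := by
    rw [hPc, hmP]
    change (1 : G) ∈ (S : Subgroup G)
    exact one_mem _
  have hdec : ∀ x : X, x = ι x.left * SemidirectProduct.inr x.right := fun x =>
    (SemidirectProduct.inl_left_mul_inr_right x).symm
  have htc : ∀ s ∈ (P : Subgroup X), s * t = t * s := by
    intro s hs
    have hs' : s.left ∈ (S : Subgroup G) := hs
    apply SemidirectProduct.ext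
    · rw [SemidirectProduct.mul_left, SemidirectProduct.mul_left]
      change s.left * (s.right : MulAut G) 1 = 1 * σ s.left
      rw [map_one, hσS _ hs', mul_one, one_mul]
    · rw [SemidirectProduct.mul_right, SemidirectProduct.mul_right]
      exact (Subgroup.zpowers_isMulCommutative σ).is_comm.comm s.right t.right
  have hzpow : ∀ z : zpowers σ, ∃ i : ℤ, (SemidirectProduct.inr z : X) = t ^ i := by
    rintro ⟨z, i, rfl⟩
    refine ⟨i, ?_⟩
    change _ = (SemidirectProduct.inr ⟨σ, mem_zpowers σ⟩ : X) ^ i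
    rw [← map_zpow]
    rfl
  have hNt : ∀ g : X, ∃ n ∈ N, ∃ i : ℤ, g = n * t ^ i := by
    intro g
    obtain ⟨i, hi⟩ := hzpow g.right
    exact ⟨ι g.left, ⟨_, rfl⟩, i, by rw [← hi]; exact hdec g⟩
  have hleftι : ∀ g : G, (ι g).left = g := fun g => SemidirectProduct.left_inl g
  have hiso : ∀ g : X, g * t * g⁻¹ ∈ (P : Subgroup X) → g * t * g⁻¹ = t := by
    refine H5.Centric.isolated_of_normal P htP htc N hNt ?_
    intro Q hQ hQs n hnN hnQ
    obtain ⟨n, rfl⟩ := hnN
    have hQι : ∀ q ∈ Q, ι q.left = q := by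
      intro q hq
      obtain ⟨q', rfl⟩ := (hQ hq).2
      rw [hleftι]
    set Q' := Q.comap ι with hQ'
    have hQ'm : Q'.map ι = Q := by
      rw [hQ', map_comap_eq]
      exact inf_eq_right.2 (fun q hq => (hQ hq).2)
    have hQ'S : Q' ≤ (S : Subgroup G) := by
      intro q hq
      have h1 : ι q ∈ (P : Subgroup X) := (hQ hq).1
      rw [hPc, hmP, hleftι] at h1
      exact h1
    have hcent : (centralizer (Q' : Set G)).map ι = centralizer (Q : Set X) ⊓ N := by
      ext x
      constructor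
      · rintro ⟨y, hy, rfl⟩
        refine ⟨mem_centralizer_iff.2 ?_, ⟨y, rfl⟩⟩
        intro q hq
        rw [SetLike.mem_coe, ← hQ'm] at hq
        obtain ⟨q', hq', rfl⟩ := hq
        rw [← map_mul, ← map_mul, mem_centralizer_iff.1 hy q' hq']
      · rintro ⟨hx, ⟨y, rfl⟩⟩
        refine ⟨y, mem_centralizer_iff.2 fun q hq => ?_, rfl⟩
        have h1 := mem_centralizer_iff.1 hx (ι q) hq
        rw [← map_mul, ← map_mul] at h1
        exact hιinj h1
    have hsyl : IsSyl 2 (Q' ⊓ centralizer (Q' : Set G)) (centralizer (Q' : Set G)) := by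
      have e1 : (Q' ⊓ centralizer (Q' : Set G)).map ι = Q ⊓ centralizer (Q : Set X) := by
        rw [Subgroup.map_inf _ _ _ hιinj, hcent, hQ'm, ← inf_assoc]
        exact inf_eq_left.2 (fun q hq => (hQ hq.1).2)
      have h1 := hQs
      rw [← hcent, ← e1] at h1
      refine ⟨inf_le_right, S.2.to_le (inf_le_left.trans hQ'S), ?_⟩
      have h2 := h1.2.2
      rwa [Subgroup.relIndex_map_map_of_injective _ _ hιinj] at h2
    have hn' : n ∈ normalizer (Q' : Set G) := by
      rw [mem_normalizer_iff]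
      intro q
      have h1 := mem_normalizer_iff.1 hnQ (ι q)
      rw [← map_inv, ← map_mul, ← map_mul] at h1
      exact h1
    obtain ⟨O, hOo, hnO⟩ := hloc Q' hQ'S hsyl n hn'
    refine ⟨(O.map (MulAut.conj n).toMonoidHom).map ι, ?_, ?_⟩
    · rw [Subgroup.card_map_of_injective hιinj,
        Subgroup.card_map_of_injective (MulAut.conj n).injective]
      exact hOo
    · refine ⟨n * (n⁻¹ * σ n) * n⁻¹, ⟨_, hnO, rfl⟩, ?_⟩
      have e1 : n * (n⁻¹ * σ n) * n⁻¹ = σ n * n⁻¹ := by group
      rw [e1, map_mul, map_inv, ← htι]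
  have ht2 : orderOf t = 2 := by
    have h1 : Function.Injective (SemidirectProduct.inr : zpowers σ →* X) :=
      SemidirectProduct.inr_injective
    change orderOf ((SemidirectProduct.inr : zpowers σ →* X) ⟨σ, mem_zpowers σ⟩) = 2
    rw [orderOf_injective _ h1, ← Subgroup.orderOf_coe]
    exact hord
  have hz := H5.ZStar.sylow_form P t ht2 hiso
  -- the normal odd subgroup
  have hOX : ¬ 2 ∣ Nat.card (pPrimeCore 2 X) := by
    have := H1.Cores.coprime_card_pPrimeCore (G := X) 2
    intro h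
    have h3 := Nat.dvd_gcd h (dvd_refl 2)
    rw [this] at h3
    omega
  haveI hOn : (pPrimeCore 2 X).Normal := H1.Cores.pPrimeCore_normal (G := X) 2
  have hcomap : (pPrimeCore 2 X).comap ι = ⊥ := by
    apply hO
    · exact Subgroup.normal_comap ι
    · rw [Nat.odd_iff, ← Nat.not_even_iff, even_iff_two_dvd]
      intro h2
      apply hOX
      have h3 : Nat.card ((pPrimeCore 2 X).comap ι) ∣ Nat.card (pPrimeCore 2 X) := by
        rw [← Subgroup.card_map_of_injective hιinj]
        exact Subgroup.card_dvd_of_le (Subgroup.map_comap_le _ _)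
      exact h2.trans h3
  apply hσ1
  ext g
  have h1 := hz (ι g)
  rw [htι, ← map_inv, ← map_mul] at h1
  have h2 : σ g * g⁻¹ ∈ (pPrimeCore 2 X).comap ι := h1
  rw [hcomap, mem_bot] at h2
  exact mul_inv_eq_one.1 h2

/-- the commutator subgroup of `C_{Aut G}(S)` has odd order if `O(G) = 1` -/
theorem odd_commutator (hO : ∀ N : Subgroup G, N.Normal → Odd (Nat.card N) → N = ⊥)
    (S : Sylow 2 G) (C : Subgroup (MulAut G))
    (hC : ∀ φ ∈ C, ∀ s ∈ (S : Subgroup G), φ s = s) : ¬ 2 ∣ Nat.card (commutator C) := by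
  classical
  intro h2
  haveI : Fact (Nat.Prime 2) := ⟨Nat.prime_two⟩
  haveI : Finite (MulAut G) := Finite.of_injective (fun φ : MulAut G => (φ : G → G))
    DFunLike.coe_injective
  obtain ⟨σ, hσ⟩ := exists_prime_orderOf_dvd_card' (G := commutator C) 2 h2
  have hσ1 : ((σ : C) : MulAut G) ≠ 1 := by
    intro h
    have h1 : σ = 1 := Subtype.ext (Subtype.ext h)
    rw [h1, orderOf_one] at hσ
    omega
  apply hσ1
  have hσC : ((σ : C) : MulAut G) ∈ C := σ.1.2
  refine aut_eq_one hO S _ ?_ (hC _ hσC) ?_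
  · have h1 : σ * σ = 1 := by rw [← pow_two, ← hσ, pow_orderOf_eq_one]
    exact congrArg (fun x : commutator C => ((x : C) : MulAut G)) h1
  · intro Q hQ hQs n hn
    set K := centralizer (Q : Set G) with hK
    have hcent : K ≤ centralizer ((Q ⊓ K : Subgroup G) : Set G) := centralizer_le inf_le_left
    obtain ⟨O, hO1, hO2, hO3⟩ := H38.PPrime.exists_complement_of_central hQs hcent
    have hOK : O ≤ K := fun x hx => ((hO1 x).1 hx).1
    refine ⟨O, fun h => ?_, ?_⟩
    · have h3 := Nat.dvd_gcd h (dvd_refl 2)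
      rw [hO2] at h3
      omega
    have hOn : (O.subgroupOf K).Normal := by
      refine ⟨fun x hx g => ?_⟩
      rw [mem_subgroupOf] at hx ⊢
      rw [hO1] at hx ⊢
      exact ⟨(g * x * g⁻¹).2, by
        show (orderOf ((g : G) * (x : G) * (g : G)⁻¹)).Coprime 2
        rw [H38.PPrime.orderOf_conj]; exact hx.2⟩
    -- elements of `C` act on `K` and on `N(Q)`
    have hfixQ : ∀ φ ∈ C, ∀ q ∈ Q, φ q = q := fun φ hφ q hq => hC φ hφ q (hQ hq)
    have hφK : ∀ φ ∈ C, ∀ x ∈ K, φ x ∈ K := by
      intro φ hφ x hx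
      refine mem_centralizer_iff.2 fun q hq => ?_
      have h1 := mem_centralizer_iff.1 hx q hq
      have h3 := congrArg φ h1
      rw [map_mul, map_mul, hfixQ φ hφ q hq] at h3
      exact h3
    have hφO : ∀ φ ∈ C, ∀ x ∈ O, φ x ∈ O := by
      intro φ hφ x hx
      rw [hO1] at hx ⊢
      refine ⟨hφK φ hφ x hx.1, ?_⟩
      have : orderOf (φ x) = orderOf x := orderOf_injective φ.toMonoidHom φ.injective x
      rw [this]; exact hx.2
    have hδ : ∀ φ ∈ C, n⁻¹ * φ n ∈ K := by
      intro φ hφ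
      refine mem_centralizer_iff.2 fun q hq => ?_
      have h1 : n * q * n⁻¹ ∈ Q := (mem_normalizer_iff.1 hn q).1 hq
      have h3 : φ (n * q * n⁻¹) = n * q * n⁻¹ := hfixQ φ hφ _ h1
      rw [map_mul, map_mul, map_inv, hfixQ φ hφ q hq] at h3
      have h4 : q = n⁻¹ * (φ n * q * (φ n)⁻¹) * n := by rw [h3]; group
      calc q * (n⁻¹ * φ n) = n⁻¹ * (φ n * q * (φ n)⁻¹) * n * (n⁻¹ * φ n) := by rw [← h4]
        _ = n⁻¹ * φ n * q := by group
    haveI := hOn
    have hactK : ∀ φ ∈ C, ∀ (x : G) (hx : x ∈ K) (hx' : φ x ∈ K),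
        ((⟨φ x, hx'⟩ : K) : K ⧸ O.subgroupOf K) = ((⟨x, hx⟩ : K) : K ⧸ O.subgroupOf K) := by
      intro φ hφ x hx hx'
      rw [QuotientGroup.eq, mem_subgroupOf]
      change (φ x)⁻¹ * x ∈ O
      obtain ⟨z, hz, o, ho, rfl⟩ := hO3 x hx
      rw [map_mul, hfixQ φ hφ z hz.1]
      have e1 : (z * φ o)⁻¹ * (z * o) = (φ o)⁻¹ * o := by group
      rw [e1]
      exact O.mul_mem (O.inv_mem (hφO φ hφ o ho)) ho
    have hcommKO : ∀ a b : K ⧸ O.subgroupOf K, a * b = b * a := by
      intro a b
      obtain ⟨⟨a, ha⟩, rfl⟩ := QuotientGroup.mk_surjective a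
      obtain ⟨⟨b, hb⟩, rfl⟩ := QuotientGroup.mk_surjective b
      obtain ⟨z, hz, o, ho, hzo⟩ := hO3 a ha
      obtain ⟨z', hz', o', ho', hzo'⟩ := hO3 b hb
      have e1 : (((⟨a, ha⟩ : K)) : K ⧸ O.subgroupOf K) = ((⟨z, hz.2⟩ : K) : K ⧸ O.subgroupOf K) := by
        rw [QuotientGroup.eq, mem_subgroupOf]
        change a⁻¹ * z ∈ O
        have e2 : a⁻¹ * z = o⁻¹ := by rw [hzo]; group
        rw [e2]; exact O.inv_mem ho
      have e1' : (((⟨b, hb⟩ : K)) : K ⧸ O.subgroupOf K) = ((⟨z', hz'.2⟩ : K) : K ⧸ O.subgroupOf K) := by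
        rw [QuotientGroup.eq, mem_subgroupOf]
        change b⁻¹ * z' ∈ O
        have e2 : b⁻¹ * z' = o'⁻¹ := by rw [hzo']; group
        rw [e2]; exact O.inv_mem ho'
      rw [e1, e1', ← QuotientGroup.mk_mul, ← QuotientGroup.mk_mul]
      congr 1
      apply Subtype.ext
      exact (mem_centralizer_iff.1 hz'.2 z hz.1)
    let f : C →* K ⧸ O.subgroupOf K :=
      { toFun := fun φ => ((⟨n⁻¹ * (φ : MulAut G) n, hδ φ φ.2⟩ : K) : K ⧸ O.subgroupOf K)
        map_one' := by
          rw [QuotientGroup.eq_one_iff, mem_subgroupOf]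
          change n⁻¹ * n ∈ O
          rw [inv_mul_cancel]; exact O.one_mem
        map_mul' := by
          intro ψ φ
          have hx := hδ φ φ.2
          have hx' := hφK ψ ψ.2 _ hx
          rw [← hactK ψ ψ.2 _ hx hx', ← QuotientGroup.mk_mul]
          congr 1
          apply Subtype.ext
          change n⁻¹ * ((ψ : MulAut G) * (φ : MulAut G)) n =
            n⁻¹ * (ψ : MulAut G) n * (ψ : MulAut G) (n⁻¹ * (φ : MulAut G) n)
          rw [MulAut.mul_apply, map_mul, map_inv]
          group }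
    have hker : commutator C ≤ f.ker := by
      rw [_root_.commutator_def, Subgroup.commutator_le]
      intro a _ b _
      rw [MonoidHom.mem_ker, map_commutatorElement, commutatorElement_eq_one_iff_mul_comm]
      exact hcommKO _ _
    have h1 := hker σ.2
    rw [MonoidHom.mem_ker] at h1
    have h2 : ((⟨n⁻¹ * ((σ : C) : MulAut G) n, hδ _ hσC⟩ : K) : K ⧸ O.subgroupOf K) = 1 := h1
    rw [QuotientGroup.eq_one_iff, mem_subgroupOf] at h2
    exact h2

end H39.AutZ
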