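import Mathlib
import Cfsg.Agent.Lib.H39.AutZ

set_option autoImplicit false

/-! The group of automorphisms fixing a Sylow `2`-subgroup pointwise (Glauberman), modulo the odd
order theorem. -/

namespace H39.AutZ

universe u

open Subgroup Cfsg H38.Basic
open scoped commutatorElement

variable {G : Type u} [Group G] [Finite G]

theorem glauberman (hFT : ∀ (X : Type u) [Group X] [Finite X], Odd (Nat.card X) → Group.IsSolvable X)
    (hO : ∀ N : Subgroup G, N.Normal → Odd (Nat.card N) → N = ⊥) (S : Sylow 2 G)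
    (C : Subgroup (MulAut G)) (hC : ∀ φ : MulAut G, φ ∈ C ↔ ∀ s : G, s ∈ S → φ s = s) :
    (∀ T : Sylow 2 ↥C, (∀ a b : ↥T, a * b = b * a) ∧
      ∃ N : Subgroup ↥C, N.Normal ∧ Subgroup.IsComplement' N (T : Subgroup ↥C)) ∧
      Group.IsSolvable ↥C := by
  classical
  haveI : Fact (Nat.Prime 2) := ⟨Nat.prime_two⟩
  haveI : Finite (MulAut G) := Finite.of_injective (fun φ : MulAut G => (φ : G → G))
    DFunLike.coe_injective
  have hodd := odd_commutator hO S C (fun φ hφ s hs => (hC φ).1 hφ s hs)
  have hodd' : Odd (Nat.card (commutator C)) := by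
    rw [← Nat.not_even_iff_odd, even_iff_two_dvd]; exact hodd
  have key : ∀ (T : Sylow 2 C) (x : C), x ∈ (T : Subgroup C) → x ∈ commutator C → x = 1 := by
    intro T x hxT hx
    obtain ⟨k, hk⟩ := T.2 ⟨x, hxT⟩
    have hk' : x ^ 2 ^ k = 1 := congrArg Subtype.val hk
    obtain ⟨j, -, hj⟩ := (Nat.dvd_prime_pow Nat.prime_two).1 (orderOf_dvd_of_pow_eq_one hk')
    have h1 : orderOf x ∣ Nat.card (commutator C) := by
      have := orderOf_dvd_natCard (⟨x, hx⟩ : commutator C)
      rwa [Subgroup.orderOf_mk] at this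
    rcases Nat.eq_zero_or_pos j with h0 | h0
    · rw [h0, pow_zero] at hj
      exact orderOf_eq_one_iff.1 hj
    · exfalso
      apply hodd
      refine dvd_trans ?_ h1
      rw [hj]
      exact dvd_pow_self 2 h0.ne'
  refine ⟨fun T => ⟨?_, ?_⟩, ?_⟩
  · rintro ⟨a, ha⟩ ⟨b, hb⟩
    apply Subtype.ext
    change a * b = b * a
    have h1 : ⁅a, b⁆ = 1 := key T _ (by
      rw [commutatorElement_def]
      exact mul_mem (mul_mem (mul_mem ha hb) (inv_mem ha)) (inv_mem hb))
      (Subgroup.commutator_mem_commutator (mem_top a) (mem_top b))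
    exact commutatorElement_eq_one_iff_mul_comm.1 h1
  · have hN : Subgroup.normalizer ((T : Subgroup C) : Set C) ≤
        Subgroup.centralizer ((T : Subgroup C) : Set C) := by
      intro n hn
      refine mem_centralizer_iff.2 fun t ht => ?_
      have h1 : ⁅t, n⁆ = 1 := key T _ (by
        rw [commutatorElement_def]
        have h2 : n * t⁻¹ * n⁻¹ ∈ (T : Subgroup C) := (mem_normalizer_iff.1 hn _).1 (inv_mem ht)
        have e : t * n * t⁻¹ * n⁻¹ = t * (n * t⁻¹ * n⁻¹) := by group
        rw [e]
        exact mul_mem ht h2)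
        (Subgroup.commutator_mem_commutator (mem_top t) (mem_top n))
      exact commutatorElement_eq_one_iff_mul_comm.1 h1
    exact ⟨_, inferInstance, MonoidHom.ker_transferSylow_isComplement' T hN⟩
  · have h1 : Group.IsSolvable (commutator C) := hFT _ hodd'
    have h2 : Group.IsSolvable (C ⧸ commutator C) := by
      haveI := h1
      have : Group.IsSolvable (Abelianization C) := inferInstance
      exact this
    exact (Group.isSolvable_iff_subgroup_quotient (commutator C)).2 ⟨h1, h2⟩

end H39.AutZ
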