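import Mathlib

set_option autoImplicit false

namespace H39.Inv

/-- an involution acting without fixed points on a (finite) normal subgroup inverts it -/
theorem conj_eq_inv {H : Type*} [Group H] [Finite H] (z : H) (hz : z * z = 1) (N : Subgroup H) [N.Normal]
    (hN : ∀ n ∈ N, z * n = n * z → n = 1) : ∀ n ∈ N, z * n * z⁻¹ = n⁻¹ := by
  intro n hn
  let φ : ↥N →* ↥N := (MulAut.conjNormal (H := N) z).toMonoidHom
  have hφ : MonoidHom.FixedPointFree φ := by
    intro g hg
    have h1 : z * (g : H) * z⁻¹ = g := by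
      have := congrArg Subtype.val hg
      simpa [φ] using this
    have h2 : z * (g : H) = g * z := by
      rw [mul_inv_eq_iff_eq_mul] at h1; exact h1
    exact Subtype.ext (hN g g.2 h2)
  have h2 : Function.Involutive φ := by
    intro g
    apply Subtype.ext
    have hzi : z⁻¹ = z := by rw [inv_eq_iff_mul_eq_one]; exact hz
    simp only [φ, MulEquiv.coe_toMonoidHom, MulAut.conjNormal_apply, MulEquiv.toMonoidHom_eq_coe, MonoidHom.coe_coe]
    rw [hzi]
    calc z * (z * (g:H) * z) * z = (z * z) * g * (z * z) := by group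
      _ = g := by rw [hz]; group
  have h3 := congrFun (hφ.coe_eq_inv_of_involutive h2) ⟨n, hn⟩
  have := congrArg Subtype.val h3
  simpa [φ] using this

theorem abelian_normal_eq_bot {H : Type*} [Group H] [Finite H] (z : H) (hz : orderOf z = 2)
    (hN : ∀ N : Subgroup H, N.Normal → N ≠ ⊤ → N ⊓ Subgroup.centralizer ({z} : Set H) = ⊥) (E : Subgroup H)
    (hE : IsKleinFour ↥E) (hzE : z ∈ E) (hc : ∀ e ∈ E, e ≠ 1 → IsConj z e) (N : Subgroup H) [hNn : N.Normal]
    (hab : IsMulCommutative ↥N) : N = ⊥ := by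
  classical
  have hz1 : z ≠ 1 := by rintro rfl; simp at hz
  have hzz : z * z = 1 := by
    have := pow_orderOf_eq_one z
    rw [hz, pow_two] at this; exact this
  -- a second involution in E
  obtain ⟨e, heE, he1, hez⟩ : ∃ e ∈ E, e ≠ 1 ∧ e ≠ z := by
    by_contra hcon
    push Not at hcon
    have hcard := hE.card_four
    have hle : Nat.card ↥E ≤ 2 := by
      have hsub : (E : Set H) ⊆ {1, z} := by
        intro x hx
        by_cases hx1 : x = 1
        · left; exact hx1
        · right; exact hcon x hx hx1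
      calc Nat.card ↥E = (E : Set H).ncard := rfl
        _ ≤ ({1, z} : Set H).ncard := Set.ncard_le_ncard hsub (Set.toFinite _)
        _ ≤ 2 := (Set.ncard_insert_le _ _).trans (by simp)
    omega
  by_cases hNt : N = ⊤
  · -- H abelian
    obtain ⟨g, hg⟩ := isConj_iff.1 (hc e heE he1)
    have : z * g = g * z := by
      have := hab.is_comm.comm (⟨z, by rw [hNt]; trivial⟩ : N) ⟨g, by rw [hNt]; trivial⟩
      simpa using congrArg Subtype.val this
    exact absurd (by rw [← hg, ← this, mul_assoc, mul_inv_cancel, mul_one]) hez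
  have h1 : ∀ e ∈ E, e ≠ 1 → ∀ n ∈ N, e * n = n * e → n = 1 := by
    intro e he he1 n hn hen
    obtain ⟨g, hg⟩ := isConj_iff.1 (hc e he he1)
    have h3 : g⁻¹ * n * g ∈ N ⊓ Subgroup.centralizer ({z} : Set H) := by
      refine Subgroup.mem_inf.2 ⟨?_, ?_⟩
      · have := hNn.conj_mem n hn g⁻¹
        simpa using this
      · rw [Subgroup.mem_centralizer_singleton_iff]
        have hz' : z = g⁻¹ * e * g := by rw [← hg]; group
        rw [hz']
        calc g⁻¹ * n * g * (g⁻¹ * e * g) = g⁻¹ * (n * e) * g := by group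
          _ = g⁻¹ * (e * n) * g := by rw [hen]
          _ = g⁻¹ * e * g * (g⁻¹ * n * g) := by group
    rw [hN N hNn hNt, Subgroup.mem_bot] at h3
    calc n = g * (g⁻¹ * n * g) * g⁻¹ := by group
      _ = 1 := by rw [h3]; group
  have hee : ∀ e ∈ E, e * e = 1 := by
    intro e he
    have := hE.exponent_two
    have h4 := Monoid.pow_exponent_eq_one (⟨e, he⟩ : ↥E)
    rw [this, pow_two] at h4
    simpa using congrArg Subtype.val h4
  have hinv : ∀ e ∈ E, e ≠ 1 → ∀ n ∈ N, e * n * e⁻¹ = n⁻¹ := fun e he he1 =>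
    conj_eq_inv e (hee e he) N (h1 e he he1)
  rw [eq_bot_iff]
  intro n hn
  rw [Subgroup.mem_bot]
  have hzinv : z⁻¹ = z := by rw [inv_eq_iff_mul_eq_one]; exact hzz
  have hze : z * e ≠ 1 := by
    intro h
    apply hez
    have : e = z⁻¹ := eq_inv_of_mul_eq_one_right h
    rw [this, hzinv]
  apply h1 (z * e) (mul_mem hzE heE) hze n hn
  have h5 := hinv e heE he1 n hn
  have h6 := hinv z hzE hz1 (n⁻¹) (inv_mem hn)
  have h7 : (z * e) * n * (z * e)⁻¹ = n := by
    calc (z * e) * n * (z * e)⁻¹ = z * (e * n * e⁻¹) * z⁻¹ := by group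
      _ = z * n⁻¹ * z⁻¹ := by rw [h5]
      _ = n⁻¹⁻¹ := h6
      _ = n := inv_inv n
  rwa [mul_inv_eq_iff_eq_mul] at h7

theorem isSimple {H : Type*} [Group H] [Finite H] (z : H) (hz : orderOf z = 2)
    (hN : ∀ N : Subgroup H, N.Normal → N ≠ ⊤ → N ⊓ Subgroup.centralizer ({z} : Set H) = ⊥) (E : Subgroup H)
    (hE : IsKleinFour ↥E) (hzE : z ∈ E) (hc : ∀ e ∈ E, e ≠ 1 → IsConj z e) : IsSimpleGroup H := by
  have hz1 : z ≠ 1 := by rintro rfl; simp at hz
  have hzz : z * z = 1 := by
    have := pow_orderOf_eq_one z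
    rw [hz, pow_two] at this; exact this
  have : Nontrivial H := ⟨z, 1, hz1⟩
  refine ⟨fun N hNn => ?_⟩
  by_cases hNt : N = ⊤
  · right; exact hNt
  left
  have h1 : ∀ n ∈ N, z * n = n * z → n = 1 := by
    intro n hn hzn
    have : n ∈ N ⊓ Subgroup.centralizer ({z} : Set H) := Subgroup.mem_inf.2 ⟨hn, by
      rw [Subgroup.mem_centralizer_singleton_iff]; exact hzn.symm⟩
    rw [hN N hNn hNt, Subgroup.mem_bot] at this
    exact this
  have h2 := conj_eq_inv z hzz N h1
  refine abelian_normal_eq_bot z hz hN E hE hzE hc N ⟨⟨fun a b => ?_⟩⟩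
  apply Subtype.ext
  have ha := h2 a a.2
  have hb := h2 b b.2
  have hab := h2 (a * b) (mul_mem a.2 b.2)
  have h3 : z * ((a:H) * b) * z⁻¹ = (z * a * z⁻¹) * (z * b * z⁻¹) := by group
  rw [hab, ha, hb, mul_inv_rev] at h3
  have h4 : ((a:H)⁻¹ * (b:H)⁻¹)⁻¹ = ((b:H)⁻¹ * (a:H)⁻¹)⁻¹ := by rw [h3]
  rw [mul_inv_rev, mul_inv_rev, inv_inv, inv_inv] at h4
  show (a:H) * b = b * a
  exact h4.symm

end H39.Inv
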