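import Cfsg.Agent.Lib.H39.PuOne

/-!
Rank one pushing up, `b = 1` in a maximal `p`-local subgroup: `O_p(G)` is elementary abelian.
-/

set_option autoImplicit false

open Cfsg Subgroup H28.Cj H28.RelSyl H52.PU
open scoped commutatorElement

namespace H39.PuEnd

open H39.PuOne

variable {X : Type*} [Group X] {p : ℕ} [Finite X] [hp : Fact p.Prime] {G S G' : Subgroup X}

/-- `Q = V (Q ∩ Q')` -/
theorem exists_decQ (c : Cr p G S G' S) {u : X} (hu : u ∈ Qf p G) :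
    ∃ v ∈ Vf p G, ∃ b, b ∈ Qf p G ∧ b ∈ Qf p G' ∧ u = v * b := by
  have hu1 : u ∈ Vf p G ⊔ Qf p G' := by rw [c.sup_eq]; exact c.sα.Q_le hu
  obtain ⟨v, hv, b, hb, rfl⟩ :=
    (mem_sup_iff_of_le_normalizer (c.hα.trans c.sβ.S_norm_Q)).mp hu1
  refine ⟨v, hv, b, ?_, hb, rfl⟩
  have := mul_mem (inv_mem (c.sα.V_le hv)) hu
  simpa using this

theorem comm_Q (c : Cr p G S G' S) : ⁅Qf p G, Qf p G⁆ = ⁅Qf p G ⊓ Qf p G', Qf p G ⊓ Qf p G'⁆ := by
  refine le_antisymm ?_ (commutator_mono inf_le_left inf_le_left)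
  rw [commutator_le]
  intro x hx y hy
  obtain ⟨v, hv, b, hb, hb', rfl⟩ := exists_decQ c hx
  obtain ⟨w, hw, d, hd, hd', rfl⟩ := exists_decQ c hy
  have cvb : Commute v b := commute_of_le_centralizer c.sα.Q_cent hb hv
  have cvd : Commute v d := commute_of_le_centralizer c.sα.Q_cent hd hv
  have cwb : Commute w b := commute_of_le_centralizer c.sα.Q_cent hb hw
  have cwd : Commute w d := commute_of_le_centralizer c.sα.Q_cent hd hw
  have cvw : Commute v w := c.sα.V_comm hv hw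
  have e : ⁅v * b, w * d⁆ = ⁅b, d⁆ := by
    have c1 : Commute v (b * (w * d) * b⁻¹) := (cvb.mul_right (cvw.mul_right cvd)).mul_right cvb.inv_right
    have c2 : Commute w (b * d * b⁻¹) := (cwb.mul_right cwd).mul_right cwb.inv_right
    rw [commutatorElement_def, commutatorElement_def]
    calc v * b * (w * d) * (v * b)⁻¹ * (w * d)⁻¹
        = (v * (b * (w * d) * b⁻¹)) * v⁻¹ * (w * d)⁻¹ := by group
      _ = ((b * (w * d) * b⁻¹) * v) * v⁻¹ * (w * d)⁻¹ := by rw [c1.eq]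
      _ = (b * w) * (d * b⁻¹ * (w * d)⁻¹) := by group
      _ = (w * b) * (d * b⁻¹ * (w * d)⁻¹) := by rw [cwb.eq]
      _ = (w * (b * d * b⁻¹)) * (d⁻¹ * w⁻¹) := by group
      _ = ((b * d * b⁻¹) * w) * (d⁻¹ * w⁻¹) := by rw [c2.eq]
      _ = (b * d * b⁻¹) * (w * d⁻¹) * w⁻¹ := by group
      _ = (b * d * b⁻¹) * (d⁻¹ * w) * w⁻¹ := by rw [(cwd.inv_right).eq]
      _ = b * d * b⁻¹ * d⁻¹ := by group
  rw [e]
  exact commutator_mem_commutator ⟨hb, hb'⟩ ⟨hd, hd'⟩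

theorem PwC_Q (c : Cr p G S G' S) (hV : ∀ v ∈ Vf p G, v ^ p = 1) :
    PwC p (Qf p G) = PwC p (Qf p G ⊓ Qf p G') := by
  refine le_antisymm ?_ (PwC_mono inf_le_left)
  rw [PwC, closure_le]
  rintro _ ⟨y, hy, rfl⟩
  obtain ⟨v, hv, b, hb, hb', rfl⟩ := exists_decQ c hy
  have cvb : Commute v b := commute_of_le_centralizer c.sα.Q_cent hb hv
  rw [cvb.mul_pow, hV v hv, one_mul]
  exact subset_closure ⟨b, ⟨hb, hb'⟩, rfl⟩

theorem cj_PwC (n : X) (k : ℕ) (H : Subgroup X) : cj n (PwC k H) = PwC k (cj n H) := by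
  have key : ∀ (m : X) (K : Subgroup X), cj m (PwC k K) ≤ PwC k (cj m K) := by
    intro m K
    rw [cj, PwC, MonoidHom.map_closure, closure_le]
    rintro _ ⟨_, ⟨y, hy, rfl⟩, rfl⟩
    exact subset_closure ⟨(MulAut.conj m) y, ⟨y, hy, rfl⟩, by
      change (MulAut.conj m) (y ^ k) = _; rw [map_pow]⟩
  refine le_antisymm (key n H) ?_
  rw [le_cj_iff]
  have := key n⁻¹ (cj n H)
  rwa [cj_inv_cj] at this

/-- the critical pair for `b = 1` -/
theorem cr_of (h : Setup p G S) {n : X} (hn : n ∈ normalizer (S : Set X))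
    (hV : ¬ Vf p G ≤ cj n (Qf p G)) : Cr p G S (cj n G) S := by
  have hS : cj n S = S := mem_normalizer_iff_cj.mp hn
  refine Inc.cr h (Inc.refl G S) ⟨n, rfl, hS.symm⟩ h.V_le_S ?_ ?_
  · rw [← cj_Vf]
    calc cj n (Vf p G) ≤ cj n S := cj_le_cj.mpr h.V_le_S
      _ = S := hS
  · rwa [← cj_Qf]

theorem V_pow (h : Setup p G S) {n : X} (hn : n ∈ normalizer (S : Set X))
    (hV : ¬ Vf p G ≤ cj n (Qf p G)) : ∀ v ∈ Vf p G, v ^ p = 1 := by
  have c := cr_of h hn hV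
  refine H51.PuElem.V_pow h ?_
  intro v hv s hs
  have h1 : ⁅v, s⁆ ∈ ⁅Vf p G, S⁆ := commutator_mem_commutator hv hs
  rw [c.comm_eq] at h1
  have := c.comm_le_Z h1
  rwa [commutatorElement_def] at this

/-- `O_p(G)` is elementary abelian if `G` is a maximal `p`-local subgroup -/
theorem Q_elem (h : Setup p G S) {n : X} (hn : n ∈ normalizer (S : Set X))
    (hV : ¬ Vf p G ≤ cj n (Qf p G))
    (hmax : ∀ T : Subgroup X, T ≤ Qf p G → T ≠ ⊥ → G ≤ normalizer (T : Set X) → normalizer (T : Set X) ≤ G) :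
    IsElementaryAbelian p (Qf p G) := by
  have c := cr_of h hn hV
  have hVp := V_pow h hn hV
  have hVp' : ∀ w ∈ Vf p (cj n G), w ^ p = 1 := by
    intro w hw
    rw [← cj_Vf, mem_cj] at hw
    have h2 := hVp _ hw
    have h3 : w = n * (n⁻¹ * w * n) * n⁻¹ := by group
    rw [h3, conj_pow, h2]
    simp
  set T := ⁅Qf p G, Qf p G⁆ ⊔ PwC p (Qf p G) with hT
  have hNG : G ≤ normalizer (Qf p G : Set X) := le_normalizer_Qf G
  have hTn : cj n T = T := by
    rw [hT, cj_sup, cj_commutator, cj_PwC, cj_Qf, comm_Q c, PwC_Q c hVp, comm_Q c.symm,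
      PwC_Q c.symm hVp', inf_comm]
  have hTG : G ≤ normalizer (T : Set X) := by
    intro g hg
    rw [mem_normalizer_iff_cj, hT, cj_sup,
      mem_normalizer_iff_cj.mp (normalizer_le_comm hNG hNG hg),
      mem_normalizer_iff_cj.mp ((hNG.trans normalizer_le_PwC) hg)]
  have hTbot : T = ⊥ := by
    by_contra hne
    have h1 := hmax T (sup_le (commutator_le_self _) PwC_le) hne hTG
    have h2 : n ∈ G := h1 (mem_normalizer_iff_cj.mpr hTn)
    exact hV (by rw [mem_normalizer_iff_cj.mp (hNG h2)]; exact h.V_le)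
  have h1 : ⁅Qf p G, Qf p G⁆ = ⊥ := le_bot_iff.mp (by rw [← hTbot]; exact le_sup_left)
  have h2 : PwC p (Qf p G) = ⊥ := le_bot_iff.mp (by rw [← hTbot]; exact le_sup_right)
  refine ⟨⟨⟨fun a b => Subtype.ext ?_⟩⟩, ?_⟩
  · have h3 : ⁅(a : X), (b : X)⁆ ∈ ⁅Qf p G, Qf p G⁆ := commutator_mem_commutator a.2 b.2
    rw [h1, mem_bot, commutatorElement_eq_one_iff_mul_comm] at h3
    exact h3
  · intro a ha
    have h3 : a ^ p ∈ PwC p (Qf p G) := subset_closure ⟨a, ha, rfl⟩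
    rwa [h2, mem_bot] at h3

/-- the complement side: `S = V^n Q` and `[Q, V^n] ≤ V` -/
theorem Vn_sup (h : Setup p G S) {n : X} (hn : n ∈ normalizer (S : Set X))
    (hV : ¬ Vf p G ≤ cj n (Qf p G)) : Vf p (cj n G) ⊔ Qf p G = S := (cr_of h hn hV).sup_eq'

theorem Vn_comm (h : Setup p G S) {n : X} (hn : n ∈ normalizer (S : Set X))
    (hV : ¬ Vf p G ≤ cj n (Qf p G)) : ⁅Qf p G, Vf p (cj n G)⁆ ≤ Vf p G := by
  have c := cr_of h hn hV
  rw [commutator_le]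
  intro u hu w hw
  obtain ⟨v, hv, b, hb, hb', rfl⟩ := exists_decQ c hu
  have cwb : Commute w b := commute_of_le_centralizer c.sβ.Q_cent hb' hw
  have e : ⁅v * b, w⁆ = ⁅v, w⁆ := by
    rw [commutatorElement_def, commutatorElement_def]
    calc v * b * w * (v * b)⁻¹ * w⁻¹ = v * (b * w) * b⁻¹ * v⁻¹ * w⁻¹ := by group
      _ = v * (w * b) * b⁻¹ * v⁻¹ * w⁻¹ := by rw [cwb.eq]
      _ = v * w * v⁻¹ * w⁻¹ := by group
  rw [e]
  exact c.comm_le_V (commutator_mem_commutator hv hw)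

theorem Vn_elem (h : Setup p G S) {n : X} (hn : n ∈ normalizer (S : Set X))
    (hV : ¬ Vf p G ≤ cj n (Qf p G)) : IsElementaryAbelian p (Vf p (cj n G)) := by
  have c := cr_of h hn hV
  have hVp := V_pow h hn hV
  refine ⟨⟨⟨fun a b => Subtype.ext (c.sβ.V_comm a.2 b.2)⟩⟩, ?_⟩
  intro w hw
  rw [← cj_Vf, mem_cj] at hw
  have h2 := hVp _ hw
  have h3 : w = n * (n⁻¹ * w * n) * n⁻¹ := by group
  rw [h3, conj_pow, h2]
  simp

end H39.PuEnd
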