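import Cfsg.Agent.Lib.H51.Qd
import Cfsg.Agent.Lib.H29.Elem
import Cfsg.Agent.Lib.H2.Gaschutz
import Cfsg.Prelude.Def_TwoFusion

/-!
Splitting a natural `SL(2,F)`-extension: the end of the proof that a maximal `p`-local subgroup which is not pushed up
is `Qd(p^n) × E`.
-/

set_option autoImplicit false

open Cfsg Subgroup Matrix
open scoped MatrixGroups commutatorElement

namespace H39.PuQd

/-! ### `SL(2,F)` -/

theorem transvection_pow {F : Type*} [Field F] {i j : Fin 2} (h : i ≠ j) (c : F) (n : ℕ) :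
    (SpecialLinearGroup.transvection h c : SL(2, F)) ^ n = SpecialLinearGroup.transvection h (n * c) := by
  induction n with
  | zero => rw [pow_zero, Nat.cast_zero, zero_mul, SpecialLinearGroup.transvection_coeff_zero]
  | succ n ih =>
    rw [pow_succ, ih]
    apply Subtype.ext
    ext a b
    fin_cases i <;> fin_cases j <;> first | (exact absurd rfl h) | skip
    all_goals
      fin_cases a <;> fin_cases b <;>
        simp [SpecialLinearGroup.transvection_coe, add_mul, mul_add]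

theorem transvection_pow_p {F : Type*} [Field F] (p : ℕ) [CharP F p] {i j : Fin 2} (h : i ≠ j) (c : F) :
    (SpecialLinearGroup.transvection h c : SL(2, F)) ^ p = 1 := by
  rw [transvection_pow, CharP.cast_eq_zero, zero_mul, SpecialLinearGroup.transvection_coeff_zero]

theorem sl2_perfect (F : Type*) [Field F] [Fintype F] (hF : 4 ≤ Fintype.card F) :
    commutator (SpecialLinearGroup (Fin 2) F) = ⊤ := by
  classical
  have : ∃ a : F, a ∉ ({0, 1, -1} : Finset F) := by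
    by_contra hcon
    push Not at hcon
    have h1 : (Finset.univ : Finset F) ⊆ {0, 1, -1} := fun a _ => hcon a
    have h2 := Finset.card_le_card h1
    rw [Finset.card_univ] at h2
    have h3 : ({0, 1, -1} : Finset F).card ≤ 3 := Finset.card_le_three
    omega
  obtain ⟨a, ha⟩ := this
  simp only [Finset.mem_insert, Finset.mem_singleton, not_or] at ha
  refine Matrix.SL2.commutator_eq_top ha.1 (fun h => ?_)
  rcases (sq_eq_one_iff (a := a)).mp h with h | h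
  · exact ha.2.1 h
  · exact ha.2.2 h

/-! ### the section -/

theorem exists_section {G L : Type*} [Group G] [Group L] (ρ : G →* L) (hρ : Function.Surjective ρ) {H : Subgroup G}
    (hH : IsComplement' ρ.ker H) : ∃ σ : L →* G, ∀ x, ρ (σ x) = x := by
  have hinj : Function.Injective (ρ.comp H.subtype) := by
    rw [injective_iff_map_eq_one]
    intro h hh
    have h1 : (h : G) ∈ ρ.ker ⊓ H := ⟨hh, h.2⟩
    rw [hH.disjoint.eq_bot, mem_bot] at h1
    exact Subtype.ext h1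
  have hsurj : Function.Surjective (ρ.comp H.subtype) := by
    intro x
    obtain ⟨g, rfl⟩ := hρ x
    have hg : g ∈ ρ.ker ⊔ H := by rw [hH.sup_eq_top]; exact mem_top g
    obtain ⟨k, hk, h, hh, rfl⟩ := mem_sup_of_normal_left.mp hg
    refine ⟨⟨h, hh⟩, ?_⟩
    change ρ h = ρ (k * h)
    rw [map_mul, MonoidHom.mem_ker.mp hk, one_mul]
  let e := MulEquiv.ofBijective (ρ.comp H.subtype) ⟨hinj, hsurj⟩
  refine ⟨H.subtype.comp e.symm.toMonoidHom, fun x => ?_⟩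
  exact e.apply_symm_apply x

/-! ### the splitting -/

/-- `-1` in `SL(2,F)` -/
def nOne (F : Type*) [Field F] : SL(2, F) := ⟨-1, by simp [Matrix.det_fin_two]⟩

theorem nOne_mul_self (F : Type*) [Field F] : nOne F * nOne F = 1 := by
  apply Subtype.ext
  change (-1 : Matrix (Fin 2) (Fin 2) F) * -1 = 1
  simp

theorem nOne_comm {F : Type*} [Field F] (x : SL(2, F)) : nOne F * x = x * nOne F := by
  apply Subtype.ext
  change (-1 : Matrix (Fin 2) (Fin 2) F) * x.1 = x.1 * -1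
  simp

/-- the group of elements of the abelian group `Q` inverted by `z` -/
def Wg {G : Type*} [Group G] (z : G) (Q : Subgroup G) (hc : ∀ a ∈ Q, ∀ b ∈ Q, a * b = b * a) : Subgroup G where
  carrier := {q | q ∈ Q ∧ z * q * z⁻¹ = q⁻¹}
  one_mem' := ⟨one_mem _, by simp⟩
  mul_mem' := by
    rintro a b ⟨ha, ha'⟩ ⟨hb, hb'⟩
    refine ⟨mul_mem ha hb, ?_⟩
    have e : z * (a * b) * z⁻¹ = (z * a * z⁻¹) * (z * b * z⁻¹) := by group
    rw [e, ha', hb', ← _root_.mul_inv_rev, hc b hb a ha]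
  inv_mem' := by
    rintro a ⟨ha, ha'⟩
    refine ⟨inv_mem ha, ?_⟩
    have e : z * a⁻¹ * z⁻¹ = (z * a * z⁻¹)⁻¹ := by group
    rw [e, ha']

structure Dt {G : Type*} [Group G] {F : Type*} [Field F] (p : ℕ) (Q V : Subgroup G) (ρ : G →* SL(2, F))
    (σ : SL(2, F) →* G) (ψ : V →* Multiplicative (Fin 2 → F)) : Prop where
  two : p ≠ 2
  comm : ∀ a ∈ Q, ∀ b ∈ Q, a * b = b * a
  pw : ∀ a ∈ Q, a ^ p = 1
  ker : ρ.ker = Q
  sec : ∀ x, ρ (σ x) = x
  hV : V ≤ Q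
  nV : V.Normal
  surj : Function.Surjective ψ
  kerψ : ∀ v : V, ψ v = 1 → (v : G) ∈ center G
  eqv : ∀ (g : G) (v w : V), (w : G) = g * v * g⁻¹ → (ψ w).toAdd = (ρ g).1.mulVec (ψ v).toAdd
  qv : ∀ x : SL(2, F), ∀ q ∈ Q, σ x * q * (σ x)⁻¹ * q⁻¹ ∈ V
  perf : commutator SL(2, F) = ⊤
  chr : CharP F p

namespace Dt

variable {G : Type*} [Group G] {F : Type*} [Field F] {p : ℕ} [hp : Fact p.Prime] {Q V : Subgroup G}
  {ρ : G →* SL(2, F)} {σ : SL(2, F) →* G} {ψ : V →* Multiplicative (Fin 2 → F)} (h : Dt p Q V ρ σ ψ)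

include h

theorem odd : p % 2 = 1 := (hp.out.eq_two_or_odd).resolve_left h.two

theorem root {q : G} (hq : q ∈ Q) : (q ^ 2) ^ ((p + 1) / 2) = q := by
  have hodd := h.odd
  rw [← pow_mul]
  have : 2 * ((p + 1) / 2) = p + 1 := by omega
  rw [this, pow_succ, h.pw q hq, one_mul]

theorem two_ne : (2 : F) ≠ 0 := by
  have := h.chr
  intro h2
  have h3 : ((2 : ℕ) : F) = 0 := by exact_mod_cast h2
  rw [CharP.cast_eq_zero_iff F p] at h3
  exact h.two ((Nat.prime_dvd_prime_iff_eq hp.out Nat.prime_two).mp h3)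

theorem nQ : Q.Normal := by rw [← h.ker]; infer_instance

theorem zz : σ (nOne F) * σ (nOne F) = 1 := by rw [← map_mul, nOne_mul_self, map_one]

theorem z_inv : (σ (nOne F))⁻¹ = σ (nOne F) := inv_eq_of_mul_eq_one_left h.zz

theorem z_comm (x : SL(2, F)) : σ (nOne F) * σ x = σ x * σ (nOne F) := by
  rw [← map_mul, nOne_comm, map_mul]

/-- conjugation by `z` -/
theorem conj_conj (q : G) : σ (nOne F) * (σ (nOne F) * q * (σ (nOne F))⁻¹) * (σ (nOne F))⁻¹ = q := by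
  have e := h.zz
  have e2 := h.z_inv
  rw [e2]
  calc σ (nOne F) * (σ (nOne F) * q * σ (nOne F)) * σ (nOne F)
      = (σ (nOne F) * σ (nOne F)) * q * (σ (nOne F) * σ (nOne F)) := by simp only [mul_assoc]
    _ = q := by rw [e]; simp

/-- an element of `V` fixed by `z` is central -/
theorem central_of_fix {v : G} (hv : v ∈ V) (hz : σ (nOne F) * v * (σ (nOne F))⁻¹ = v) : v ∈ center G := by
  refine h.kerψ ⟨v, hv⟩ ?_
  have h1 := h.eqv (σ (nOne F)) ⟨v, hv⟩ ⟨v, hv⟩ hz.symm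
  rw [h.sec] at h1
  have h2 : (nOne F).1.mulVec (ψ ⟨v, hv⟩).toAdd = - (ψ ⟨v, hv⟩).toAdd := by
    change (-1 : Matrix (Fin 2) (Fin 2) F).mulVec _ = _
    rw [Matrix.neg_mulVec, Matrix.one_mulVec]
  rw [h2] at h1
  apply Multiplicative.toAdd.injective
  rw [toAdd_one]
  ext i
  have h3 := congrFun h1 i
  simp only [Pi.neg_apply] at h3
  have h4 : 2 * (ψ ⟨v, hv⟩).toAdd i = 0 := by linear_combination h3
  simpa using (mul_eq_zero.mp h4).resolve_left h.two_ne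

/-- the fixed points of `z` in `Q` are central -/
theorem fix_central {e : G} (he : e ∈ Q) (hz : σ (nOne F) * e * (σ (nOne F))⁻¹ = e) : e ∈ center G := by
  -- the commutators `[σ x, e]`
  have h1 : ∀ x : SL(2, F), σ x * e * (σ x)⁻¹ * e⁻¹ ∈ center G := by
    intro x
    refine h.central_of_fix (h.qv x e he) ?_
    have e1 : σ (nOne F) * (σ x * e * (σ x)⁻¹ * e⁻¹) * (σ (nOne F))⁻¹ =
        (σ (nOne F) * σ x) * e * (σ (nOne F) * σ x)⁻¹ * (σ (nOne F) * e * (σ (nOne F))⁻¹)⁻¹ := by group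
    rw [e1, h.z_comm, hz]
    have e2 : σ x * σ (nOne F) * e * (σ x * σ (nOne F))⁻¹ =
        σ x * (σ (nOne F) * e * (σ (nOne F))⁻¹) * (σ x)⁻¹ := by group
    rw [e2, hz]
  let f : SL(2, F) →* center G :=
    { toFun := fun x => ⟨_, h1 x⟩
      map_one' := by apply Subtype.ext; simp
      map_mul' := by
        intro x y
        apply Subtype.ext
        change σ (x * y) * e * (σ (x * y))⁻¹ * e⁻¹ =
          (σ x * e * (σ x)⁻¹ * e⁻¹) * (σ y * e * (σ y)⁻¹ * e⁻¹)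
        rw [map_mul]
        have hc := mem_center_iff.mp (h1 y) (σ x)
        have hc2 := mem_center_iff.mp (h1 y) (e * (σ x)⁻¹ * e⁻¹)
        calc σ x * σ y * e * (σ x * σ y)⁻¹ * e⁻¹
            = σ x * (σ y * e * (σ y)⁻¹ * e⁻¹) * (e * (σ x)⁻¹ * e⁻¹) := by group
          _ = σ x * ((σ y * e * (σ y)⁻¹ * e⁻¹) * (e * (σ x)⁻¹ * e⁻¹)) := by simp only [mul_assoc]
          _ = σ x * ((e * (σ x)⁻¹ * e⁻¹) * (σ y * e * (σ y)⁻¹ * e⁻¹)) := by rw [hc2]
          _ = (σ x * e * (σ x)⁻¹ * e⁻¹) * (σ y * e * (σ y)⁻¹ * e⁻¹) := by simp only [mul_assoc] }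
  have hf : ∀ x, f x = 1 := by
    intro x
    have hx : x ∈ commutator SL(2, F) := by rw [h.perf]; exact mem_top x
    have hle : commutator SL(2, F) ≤ f.ker := by
      rw [commutator_def, Subgroup.commutator_le]
      intro a _ b _
      rw [MonoidHom.mem_ker, map_commutatorElement, commutatorElement_eq_one_iff_mul_comm]
      exact Subtype.ext (mem_center_iff.mp (f b).2 (f a))
    exact hle hx
  have hfix : ∀ x, σ x * e = e * σ x := by
    intro x
    have h2 := congrArg Subtype.val (hf x)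
    change σ x * e * (σ x)⁻¹ * e⁻¹ = 1 at h2
    rw [mul_inv_eq_one, mul_inv_eq_iff_eq_mul] at h2
    exact h2
  rw [mem_center_iff]
  intro g
  have hg : g * (σ (ρ g))⁻¹ ∈ Q := by
    rw [← h.ker, MonoidHom.mem_ker, map_mul, map_inv, h.sec, mul_inv_cancel]
  have e1 : g = (g * (σ (ρ g))⁻¹) * σ (ρ g) := by group
  rw [e1, mul_assoc, hfix, ← mul_assoc, h.comm _ hg _ he, mul_assoc]

/-- `w(g)` -/
theorem w_mem (g : G) : g * (σ (ρ g))⁻¹ ∈ Q := by
  rw [← h.ker, MonoidHom.mem_ker, map_mul, map_inv, h.sec, mul_inv_cancel]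

/-- the group of elements inverted by `z` -/
abbrev W : Subgroup G := Wg (σ (nOne F)) Q h.comm

omit hp in
theorem mem_W {q : G} : q ∈ h.W ↔ q ∈ Q ∧ σ (nOne F) * q * (σ (nOne F))⁻¹ = q⁻¹ := Iff.rfl

/-- `Q = E W` -/
theorem exists_dec {q : G} (hq : q ∈ Q) : ∃ e ∈ center G, e ∈ Q ∧ ∃ w ∈ h.W, q = e * w := by
  have hn := h.nQ
  set z := σ (nOne F) with hz
  set q' := z * q * z⁻¹ with hq'
  have hq'Q : q' ∈ Q := hn.conj_mem q hq z
  have hzz : z * q' * z⁻¹ = q := h.conj_conj q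
  set m := (p + 1) / 2 with hm
  have c1 : Commute q q' := h.comm q hq q' hq'Q
  have hE : (q * q') ^ m ∈ center G := by
    refine h.fix_central (pow_mem (mul_mem hq hq'Q) m) ?_
    rw [← hz, ← conj_pow]
    congr 1
    have : z * (q * q') * z⁻¹ = (z * q * z⁻¹) * (z * q' * z⁻¹) := by group
    rw [this, hzz, ← hq', c1.eq]
  refine ⟨(q * q') ^ m, hE, pow_mem (mul_mem hq hq'Q) m, (q * q'⁻¹) ^ m, ?_, ?_⟩
  · rw [h.mem_W]
    refine ⟨pow_mem (mul_mem hq (inv_mem hq'Q)) m, ?_⟩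
    rw [← hz, ← conj_pow, ← inv_pow]
    congr 1
    have : z * (q * q'⁻¹) * z⁻¹ = (z * q * z⁻¹) * (z * q' * z⁻¹)⁻¹ := by group
    rw [this, hzz, ← hq', _root_.mul_inv_rev, inv_inv]
  · have c2 : Commute (q * q') (q * q'⁻¹) :=
      h.comm _ (mul_mem hq hq'Q) _ (mul_mem hq (inv_mem hq'Q))
    rw [← c2.mul_pow]
    have e1 : q * q' * (q * q'⁻¹) = q ^ 2 := by
      rw [c1.eq]
      calc q' * q * (q * q'⁻¹) = q' * (q * q) * q'⁻¹ := by simp only [mul_assoc]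
        _ = (q * q) * q' * q'⁻¹ := by rw [(c1.mul_left c1).eq]
        _ = q ^ 2 := by rw [mul_inv_cancel_right, pow_two]
    rw [e1, h.root hq]

theorem W_le_Q : h.W ≤ Q := fun _ hq => hq.1

theorem W_le_V : h.W ≤ V := by
  rintro w ⟨hw, hw'⟩
  have h1 := h.qv (nOne F) w hw
  rw [hw'] at h1
  have h2 : w ^ 2 ∈ V := by
    have := inv_mem h1
    rwa [_root_.mul_inv_rev, inv_inv, ← pow_two] at this
  rw [← h.root hw]
  exact pow_mem h2 _

theorem eq_one_of_inv {w : G} (hw : w ∈ Q) (h1 : w = w⁻¹) : w = 1 := by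
  have h2 : w ^ 2 = 1 := by rw [pow_two]; nth_rewrite 1 [h1]; exact inv_mul_cancel w
  rw [← h.root hw, h2, one_pow]

/-- central elements of `W` are trivial -/
theorem W_central {w : G} (hw : w ∈ h.W) (hc : w ∈ center G) : w = 1 := by
  refine h.eq_one_of_inv hw.1 ?_
  have h1 := hw.2
  rw [mem_center_iff.mp hc (σ (nOne F)), mul_inv_cancel_right] at h1
  exact h1

theorem W_conj (x : SL(2, F)) {w : G} (hw : w ∈ h.W) : σ x * w * (σ x)⁻¹ ∈ h.W := by
  have hn := h.nQ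
  refine h.mem_W.mpr ⟨hn.conj_mem w hw.1 _, ?_⟩
  have e : σ (nOne F) * (σ x * w * (σ x)⁻¹) * (σ (nOne F))⁻¹ =
      (σ (nOne F) * σ x) * w * (σ (nOne F) * σ x)⁻¹ := by group
  rw [e, h.z_comm]
  have e2 : σ x * σ (nOne F) * w * (σ x * σ (nOne F))⁻¹ =
      σ x * (σ (nOne F) * w * (σ (nOne F))⁻¹) * (σ x)⁻¹ := by group
  rw [e2, hw.2]
  group

/-- `G₀ = W K` -/
def G₀ : Subgroup G where
  carrier := {g | g * (σ (ρ g))⁻¹ ∈ h.W}
  one_mem' := by
    change (1 : G) * (σ (ρ 1))⁻¹ ∈ h.W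
    rw [map_one, map_one]; simp
  mul_mem' := by
    intro a b ha hb
    have ha : a * (σ (ρ a))⁻¹ ∈ h.W := ha
    have hb : b * (σ (ρ b))⁻¹ ∈ h.W := hb
    change a * b * (σ (ρ (a * b)))⁻¹ ∈ h.W
    have e : a * b * (σ (ρ (a * b)))⁻¹ =
        (a * (σ (ρ a))⁻¹) * (σ (ρ a) * (b * (σ (ρ b))⁻¹) * (σ (ρ a))⁻¹) := by
      rw [map_mul, map_mul]; group
    rw [e]
    exact mul_mem ha (h.W_conj _ hb)
  inv_mem' := by
    intro a ha
    have ha : a * (σ (ρ a))⁻¹ ∈ h.W := ha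
    change a⁻¹ * (σ (ρ a⁻¹))⁻¹ ∈ h.W
    have e : a⁻¹ * (σ (ρ a⁻¹))⁻¹ =
        σ (ρ a)⁻¹ * (a * (σ (ρ a))⁻¹)⁻¹ * (σ (ρ a)⁻¹)⁻¹ := by
      rw [map_inv, map_inv]; group
    rw [e]
    exact h.W_conj _ (inv_mem ha)

theorem mem_G₀ {g : G} : g ∈ h.G₀ ↔ g * (σ (ρ g))⁻¹ ∈ h.W := Iff.rfl

/-- the translation part -/
noncomputable def tp (g : h.G₀) : Fin 2 → F := (ψ ⟨(g : G) * (σ (ρ g))⁻¹, h.W_le_V g.2⟩).toAdd

theorem tp_mul (a b : h.G₀) : h.tp (a * b) = (ρ a).1.mulVec (h.tp b) + h.tp a := by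
  have e : ((a * b : h.G₀) : G) * (σ (ρ ((a * b : h.G₀) : G)))⁻¹ =
      ((a : G) * (σ (ρ a))⁻¹) * (σ (ρ a) * ((b : G) * (σ (ρ b))⁻¹) * (σ (ρ a))⁻¹) := by
    rw [Subgroup.coe_mul, map_mul, map_mul]; group
  have h1 : σ (ρ a) * ((b : G) * (σ (ρ b))⁻¹) * (σ (ρ a))⁻¹ ∈ V := h.nV.conj_mem _ (h.W_le_V b.2) _
  have h2 : (⟨((a * b : h.G₀) : G) * (σ (ρ ((a * b : h.G₀) : G)))⁻¹, h.W_le_V (a * b).2⟩ : V) =
      ⟨(a : G) * (σ (ρ a))⁻¹, h.W_le_V a.2⟩ * ⟨_, h1⟩ := Subtype.ext e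
  unfold tp
  rw [h2, map_mul, toAdd_mul, add_comm]
  congr 1
  have h3 := h.eqv (σ (ρ a)) ⟨(b : G) * (σ (ρ b))⁻¹, h.W_le_V b.2⟩ ⟨_, h1⟩ rfl
  rw [h.sec] at h3
  exact h3

/-- the isomorphism with `Qd` -/
noncomputable def toQd : h.G₀ →* Cfsg.qdOver F where
  toFun g := H51.Qd.mk (ρ g) (h.tp g 0) (h.tp g 1)
  map_one' := by
    have h1 : h.tp 1 = 0 := by
      have := h.tp_mul 1 1
      rw [mul_one, OneMemClass.coe_one, map_one] at this
      have h2 : (1 : SL(2, F)).1.mulVec (h.tp 1) = h.tp 1 := Matrix.one_mulVec _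
      rw [h2] at this
      exact left_eq_add.mp this
    rw [h1, OneMemClass.coe_one, map_one]
    exact H51.Qd.mk_one
  map_mul' a b := by
    rw [H51.Qd.mk_mul, h.tp_mul, Subgroup.coe_mul, map_mul]
    congr 1
    · simp
    · simp

theorem toQd_injective : Function.Injective h.toQd := by
  rw [injective_iff_map_eq_one]
  intro g hg
  have hg' : H51.Qd.mk (ρ g) (h.tp g 0) (h.tp g 1) = H51.Qd.mk (1 : SL(2, F)) 0 0 := by
    rw [H51.Qd.mk_one]; exact hg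
  obtain ⟨h1, h2, h3⟩ := H51.Qd.mk_inj.mp hg'
  have h4 : h.tp g = 0 := by
    ext i; fin_cases i
    · exact h2
    · exact h3
  have h5 : ψ ⟨(g : G) * (σ (ρ g))⁻¹, h.W_le_V g.2⟩ = 1 := Multiplicative.toAdd.injective h4
  have h6 := h.W_central g.2 (h.kerψ _ h5)
  apply Subtype.ext
  rw [h1, map_one, inv_one, mul_one] at h6
  exact h6

theorem toQd_surjective : Function.Surjective h.toQd := by
  intro M
  obtain ⟨A, a, b, rfl⟩ := H51.Qd.exists_mk M
  obtain ⟨v, hv⟩ := h.surj (Multiplicative.ofAdd ![a, b])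
  obtain ⟨e, he, heQ, w, hw, hvw⟩ := h.exists_dec (h.hV v.2)
  have hwV : w ∈ V := h.W_le_V hw
  have heV : e ∈ V := by
    have : e = v * w⁻¹ := by rw [hvw, mul_inv_cancel_right]
    rw [this]; exact mul_mem v.2 (inv_mem hwV)
  have hψe : ψ ⟨e, heV⟩ = 1 := by
    have h1 := h.eqv (σ (nOne F)) ⟨e, heV⟩ ⟨e, heV⟩
      (by rw [mem_center_iff.mp he (σ (nOne F)), mul_inv_cancel_right])
    rw [h.sec] at h1
    have h2 : (nOne F).1.mulVec (ψ ⟨e, heV⟩).toAdd = - (ψ ⟨e, heV⟩).toAdd := by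
      change (-1 : Matrix (Fin 2) (Fin 2) F).mulVec _ = _
      rw [Matrix.neg_mulVec, Matrix.one_mulVec]
    rw [h2] at h1
    apply Multiplicative.toAdd.injective
    rw [toAdd_one]
    ext i
    have h3 := congrFun h1 i
    simp only [Pi.neg_apply] at h3
    have h4 : 2 * (ψ ⟨e, heV⟩).toAdd i = 0 := by linear_combination h3
    simpa using (mul_eq_zero.mp h4).resolve_left h.two_ne
  have hψw : ψ ⟨w, hwV⟩ = Multiplicative.ofAdd ![a, b] := by
    have h1 : v = ⟨e, heV⟩ * ⟨w, hwV⟩ := Subtype.ext hvw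
    rw [h1, map_mul, hψe, one_mul] at hv
    exact hv
  have hρw : ρ w = 1 := by
    have : w ∈ ρ.ker := by rw [h.ker]; exact hw.1
    exact this
  have hρ : ρ (w * σ A) = A := by rw [map_mul, hρw, one_mul, h.sec]
  have hmem : w * σ A ∈ h.G₀ := by
    rw [mem_G₀, hρ, mul_inv_cancel_right]; exact hw
  refine ⟨⟨w * σ A, hmem⟩, ?_⟩
  have htp : h.tp ⟨w * σ A, hmem⟩ = ![a, b] := by
    unfold tp
    have h1 : (⟨(w * σ A) * (σ (ρ (w * σ A)))⁻¹, h.W_le_V hmem⟩ : V) = ⟨w, hwV⟩ := by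
      apply Subtype.ext
      change (w * σ A) * (σ (ρ (w * σ A)))⁻¹ = w
      rw [hρ, mul_inv_cancel_right]
    change (ψ ⟨(w * σ A) * (σ (ρ (w * σ A)))⁻¹, h.W_le_V hmem⟩).toAdd = _
    rw [h1, hψw]
    rfl
  change H51.Qd.mk (ρ (w * σ A)) (h.tp ⟨w * σ A, hmem⟩ 0) (h.tp ⟨w * σ A, hmem⟩ 1) = _
  rw [htp, hρ]
  rfl

theorem main : ∃ G₀ E : Subgroup G, IsInternalDirectProduct G₀ E ⊤ ∧ IsElementaryAbelian p E ∧
    Nonempty (G₀ ≃* Cfsg.qdOver F) := by
  refine ⟨h.G₀, Q ⊓ center G, ⟨le_top, le_top, ?_, ?_, ?_⟩, ⟨?_, ?_⟩,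
    ⟨MulEquiv.ofBijective h.toQd ⟨h.toQd_injective, h.toQd_surjective⟩⟩⟩
  · rintro a _ b ⟨_, hb⟩
    exact mem_center_iff.mp hb a
  · rw [eq_bot_iff]
    rintro g ⟨hg, hgQ, hgc⟩
    have h1 : ρ g = 1 := by
      have : g ∈ ρ.ker := by rw [h.ker]; exact hgQ
      exact this
    have h2 := h.mem_G₀.mp hg
    rw [h1, map_one, inv_one, mul_one] at h2
    exact mem_bot.mpr (h.W_central h2 hgc)
  · rw [eq_top_iff]
    intro g _
    obtain ⟨e, he, heQ, w, hw, hgw⟩ := h.exists_dec (h.w_mem g)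
    have hρw : ρ w = 1 := by
      have : w ∈ ρ.ker := by rw [h.ker]; exact hw.1
      exact this
    have h1 : g = (w * σ (ρ g)) * e := by
      rw [mem_center_iff.mp he, ← mul_assoc, ← hgw, inv_mul_cancel_right]
    rw [h1]
    refine mul_mem (mem_sup_left ?_) (mem_sup_right ⟨heQ, he⟩)
    rw [mem_G₀, map_mul, hρw, one_mul, h.sec, mul_inv_cancel_right]
    exact hw
  · exact ⟨⟨fun a b => Subtype.ext (h.comm _ a.2.1 _ b.2.1)⟩⟩
  · intro a ha
    exact h.pw a ha.1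

end Dt

/-- **the end of S2766** -/
theorem split {G : Type*} [Group G] [Finite G] {p : ℕ} [hp : Fact p.Prime] (hp5 : 5 ≤ p) {F : Type*} [Field F]
    [Fintype F] [CharP F p] (S : Sylow p G) (Q : Subgroup G) (hQ : IsElementaryAbelian p Q)
    (ρ : G →* SL(2, F)) (hρ : Function.Surjective ρ) (hker : ρ.ker = Q) (V : Subgroup G) (hVn : V.Normal)
    (hV : V ≤ Q) (ψ : V →* Multiplicative (Fin 2 → F)) (hψ : Function.Surjective ψ)
    (hψk : ∀ v : V, ψ v = 1 → (v : G) ∈ center G)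
    (hψe : ∀ (g : G) (v w : V), (w : G) = g * v * g⁻¹ → (ψ w).toAdd = (ρ g).1.mulVec (ψ v).toAdd)
    (A : Subgroup G) (hA : IsElementaryAbelian p A) (hSA : (S : Subgroup G) = A ⊔ Q) (hQA : ⁅Q, A⁆ ≤ V) :
    ∃ G₀ E : Subgroup G, IsInternalDirectProduct G₀ E ⊤ ∧ IsElementaryAbelian p E ∧
      Nonempty (G₀ ≃* Cfsg.qdOver F) := by
  have hQn : Q.Normal := by rw [← hker]; infer_instance
  have hQc : IsMulCommutative Q := hQ.1
  have hcomm : ∀ a ∈ Q, ∀ b ∈ Q, a * b = b * a := fun a ha b hb =>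
    congrArg Subtype.val (hQ.1.is_comm.comm (⟨a, ha⟩ : Q) ⟨b, hb⟩)
  -- a complement of `Q` in `S`
  obtain ⟨A₁, hA₁A, hA₁Q, hA₁⟩ := H29.Elem.exists_compl hA (inf_le_left : A ⊓ Q ≤ A)
  have hQS : Q ≤ (S : Subgroup G) := by rw [hSA]; exact le_sup_right
  have hd : A₁ ⊓ Q = ⊥ := by
    rw [eq_bot_iff]
    rintro x ⟨hx, hxQ⟩
    rw [← hA₁Q]
    exact ⟨⟨hA₁A hx, hxQ⟩, hx⟩
  have hsup : Q ⊔ A₁ = (S : Subgroup G) := by
    rw [hSA]
    refine le_antisymm (sup_le le_sup_right (hA₁A.trans le_sup_left)) (sup_le ?_ le_sup_left)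
    rw [← hA₁]
    exact sup_le (inf_le_right.trans le_sup_left) le_sup_right
  have hcop : (Nat.card Q).Coprime (S : Subgroup G).index := by
    have hpQ : IsPGroup p Q := S.2.to_le hQS
    obtain ⟨n, hn⟩ := IsPGroup.iff_card.mp hpQ
    rw [hn]
    exact Nat.Coprime.pow_left _ ((Nat.Prime.coprime_iff_not_dvd hp.out).mpr S.not_dvd_index)
  obtain ⟨H, hH⟩ := H2.Gaschutz.exists_complement Q (S : Subgroup G) hcop A₁
    (by rw [← hsup]; exact le_sup_right) hd hsup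
  obtain ⟨σ, hσ⟩ := exists_section ρ hρ (H := H) (by rw [hker]; exact hH)
  have hF : 4 ≤ Fintype.card F := by
    have h1 : p ∣ Fintype.card F := by
      obtain ⟨n, hn, e⟩ := FiniteField.card F p
      rw [e]; exact dvd_pow_self _ n.ne_zero
    have := Nat.le_of_dvd Fintype.card_pos h1
    omega
  -- `[Q, S] ≤ V`
  have hQS' : ∀ s ∈ (S : Subgroup G), ∀ q ∈ Q, s * q * s⁻¹ * q⁻¹ ∈ V := by
    intro s hs q hq
    rw [hSA] at hs
    obtain ⟨b, hb, a, ha, rfl⟩ := mem_sup_of_normal_right.mp hs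
    have e : b * a * q * (b * a)⁻¹ * q⁻¹ = b * (a * q * a⁻¹) * b⁻¹ * q⁻¹ := by group
    have h1 : ⁅q, b⁆ ∈ V := hQA (commutator_mem_commutator hq hb)
    have e2 : a * q * a⁻¹ = q := by rw [hcomm a ha q hq, mul_inv_cancel_right]
    rw [e, e2]
    have h2 := inv_mem h1
    rwa [commutatorElement_inv, commutatorElement_def] at h2
  have hdt : Dt p Q V ρ σ ψ := by
    refine ⟨by omega, hcomm, hQ.2, hker, hσ, hV, hVn, hψ, hψk, hψe, ?_, sl2_perfect F hF, inferInstance⟩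
    intro x
    refine Matrix.SL2.transvection_induction (fun x => ∀ q ∈ Q, σ x * q * (σ x)⁻¹ * q⁻¹ ∈ V) ?_ ?_ x
    · intro i j hij c q hq
      have h1 : (σ (SpecialLinearGroup.transvection hij c)) ^ p = 1 := by
        rw [← map_pow, transvection_pow_p p hij c, map_one]
      set y := σ (SpecialLinearGroup.transvection hij c) with hy
      have h2 : IsPGroup p (zpowers y) := by
        rintro ⟨_, k, rfl⟩
        refine ⟨1, Subtype.ext ?_⟩
        change (y ^ k) ^ (p ^ 1) = 1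
        rw [pow_one, ← zpow_natCast, ← _root_.zpow_mul, mul_comm, _root_.zpow_mul, zpow_natCast, h1, _root_.one_zpow]
      obtain ⟨T, hT⟩ := h2.exists_le_sylow
      obtain ⟨g, hg⟩ := MulAction.exists_smul_eq G T S
      have hyT : y ∈ (T : Subgroup G) := hT (mem_zpowers y)
      have hgy : g * y * g⁻¹ ∈ (S : Subgroup G) := by
        have h3 : g * y * g⁻¹ ∈ (g • T : Sylow p G) := by
          rw [Sylow.smul_def]
          exact Subgroup.smul_mem_pointwise_smul y (MulAut.conj g) _ hyT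
        rw [hg] at h3
        exact h3
      have h3 := hQS' _ hgy (g * q * g⁻¹) (hQn.conj_mem q hq g)
      have h4 := hVn.conj_mem _ h3 g⁻¹
      have e : g⁻¹ * (g * y * g⁻¹ * (g * q * g⁻¹) * (g * y * g⁻¹)⁻¹ * (g * q * g⁻¹)⁻¹) * g⁻¹⁻¹ =
          y * q * y⁻¹ * q⁻¹ := by group
      rwa [e] at h4
    · intro a b ha hb q hq
      have h1 := hb q hq
      have h2 := ha (σ b * q * (σ b)⁻¹) (hQn.conj_mem q hq _)
      have e : σ (a * b) * q * (σ (a * b))⁻¹ * q⁻¹ =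
          (σ a * (σ b * q * (σ b)⁻¹) * (σ a)⁻¹ * (σ b * q * (σ b)⁻¹)⁻¹) * (σ b * q * (σ b)⁻¹ * q⁻¹) := by
        rw [map_mul]; group
      rw [e]
      exact mul_mem h2 h1
  exact hdt.main

end H39.PuQd
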