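import Mathlib
import Cfsg.Prelude.Def_LocalEven
import Cfsg.Agent.Lib.H39.PNilp
import Cfsg.Agent.Lib.H39.SFMin
import Cfsg.Agent.Lib.H2.Fusion

set_option autoImplicit false

/-!
Control of strong fusion by a subgroup whose normalizer has a normal `p`-complement gives a normal `p`-complement.
-/

namespace H39.SFNpc

open Cfsg H38.Basic
open scoped commutatorElement

universe u

variable {G : Type u} [Group G] [Finite G] {p : ℕ} [hp : Fact p.Prime]

theorem npc_of_controls {U : Subgroup G} (hU : ControlsStrongFusion p U)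
    (hN : HasNormalPComplement p ↥(Subgroup.normalizer (U : Set G))) : HasNormalPComplement p G := by
  obtain ⟨T, hUT, hT⟩ := hU
  set N := Subgroup.normalizer (U : Set G) with hNdef
  -- `T ≤ N(U)`
  have hTN : (T : Subgroup G) ≤ N := by
    intro t ht
    obtain ⟨-, h⟩ := hT ((T : Subgroup G) : Set G) le_rfl
    obtain ⟨n, hn, hnt⟩ := h t (by
      rintro _ ⟨x, hx, rfl⟩
      exact (T : Subgroup G).mul_mem ((T : Subgroup G).mul_mem ht hx) ((T : Subgroup G).inv_mem ht))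
    rw [mem_normalizer_iff'] at hn ⊢
    refine Eq.trans ?_ hn
    ext x
    constructor
    · rintro ⟨y, hy, rfl⟩
      exact ⟨y, hy, (hnt y (hUT hy)).symm⟩
    · rintro ⟨y, hy, rfl⟩
      exact ⟨y, hy, hnt y (hUT hy)⟩
  obtain ⟨L, hLn, hLco, k, hLi⟩ := PNilp.iff_exists.1 hN
  -- `N = T L`
  have hTsup : (T : Subgroup G).subgroupOf N ⊔ L = ⊤ := by
    rw [← Subgroup.index_eq_one]
    have h1 : ((T : Subgroup G).subgroupOf N ⊔ L).index ∣ ((T : Subgroup G).subgroupOf N).index :=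
      Subgroup.index_dvd_of_le le_sup_left
    have h2 : ((T : Subgroup G).subgroupOf N ⊔ L).index ∣ p ^ k := by
      rw [← hLi]
      exact Subgroup.index_dvd_of_le le_sup_right
    have h4 : ¬ p ∣ ((T : Subgroup G).subgroupOf N).index := by
      intro hd
      apply T.not_dvd_index
      exact hd.trans (Subgroup.relIndex_dvd_index_of_le hTN)
    have h3 : (p ^ k).Coprime ((T : Subgroup G).subgroupOf N).index :=
      Nat.Coprime.pow_left k ((Nat.Prime.coprime_iff_not_dvd hp.out).2 h4)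
    exact Nat.eq_one_of_dvd_coprimes h3 h2 h1
  have hTL : (T : Subgroup G).subgroupOf N ⊓ L = ⊥ := by
    rw [← disjoint_iff]
    apply Subgroup.disjoint_of_coprime_natCard
    have h1 : IsPGroup p ((T : Subgroup G).subgroupOf N) := T.2.comap_subtype
    obtain ⟨n, hn⟩ := IsPGroup.iff_card.1 h1
    rw [hn]
    exact (Nat.Coprime.pow_right n hLco).symm
  apply H2.Fusion.hasNPC_of_self_control T
  intro x hx g hg
  obtain ⟨-, h⟩ := hT ({x} : Set G) (by rintro _ rfl; exact hx)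
  obtain ⟨n, hn, hnx⟩ := h g (by
    rintro _ ⟨y, rfl, rfl⟩
    exact hg)
  have hnx' := hnx x rfl
  have h1 : (⟨n, hn⟩ : N) ∈ (T : Subgroup G).subgroupOf N ⊔ L := by rw [hTsup]; trivial
  obtain ⟨t, ht, l, hl, htl⟩ := SFMin.mem_sup_of_norm (by rw [Subgroup.normalizer_eq_top]; exact le_top) h1
  rw [Subgroup.mem_subgroupOf] at ht
  refine ⟨t, ht, ?_⟩
  -- `⁅l, x⁆ ∈ T ∩ L`
  have h2 : t * l * ⟨x, hTN hx⟩ * (t * l)⁻¹ * (t * ⟨x, hTN hx⟩ * t⁻¹)⁻¹ ∈ (T : Subgroup G).subgroupOf N ⊓ L := by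
    refine Subgroup.mem_inf.2 ⟨?_, ?_⟩
    · rw [Subgroup.mem_subgroupOf, htl]
      show n * x * n⁻¹ * ((t : G) * x * (t : G)⁻¹)⁻¹ ∈ (T : Subgroup G)
      refine (T : Subgroup G).mul_mem ?_ ((T : Subgroup G).inv_mem ?_)
      · rw [← hnx']; exact hg
      · exact (T : Subgroup G).mul_mem ((T : Subgroup G).mul_mem ht hx) ((T : Subgroup G).inv_mem ht)
    · have h3 : t * l * ⟨x, hTN hx⟩ * (t * l)⁻¹ * (t * ⟨x, hTN hx⟩ * t⁻¹)⁻¹ =
          t * (l * (⟨x, hTN hx⟩ * l⁻¹ * (⟨x, hTN hx⟩)⁻¹)) * t⁻¹ := by group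
      rw [h3]
      exact hLn.conj_mem _ (L.mul_mem hl (hLn.conj_mem _ (L.inv_mem hl) _)) t
  rw [hTL, Subgroup.mem_bot, mul_inv_eq_one, htl] at h2
  have h3 := congrArg Subtype.val h2
  have h4 : n * x * n⁻¹ = (t : G) * x * (t : G)⁻¹ := h3
  rw [← h4, hnx']

end H39.SFNpc
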