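import Mathlib
import Cfsg.Agent.Lib.H39.ThomAb
import Cfsg.Agent.Lib.H39.PStab
import Cfsg.Agent.Lib.H39.SylowAux

set_option autoImplicit false

/-!
Groups with a normal series with factors a `p`-group, an abelian `p'`-group and a `p`-group, `p` odd, are
normalizer-`p`-stable.
-/

namespace H39.Ser

open Cfsg H38.Basic H39.ThomAb H39.PStab
open scoped commutatorElement

universe u

section defs

variable {Y : Type*} [Group Y] {p : ℕ}

/-- `Y` has normal subgroups `A ≤ B` with `A` and `Y / B` `p`-groups and `B / A` an abelian `p'`-group -/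
def Ser (p : ℕ) (Y : Type*) [Group Y] : Prop :=
  ∃ A B : Subgroup Y, A.Normal ∧ B.Normal ∧ IsPGroup p A ∧ ⁅B, B⁆ ≤ A ∧ (∀ b ∈ B, ∃ m : ℕ, m.Coprime p ∧ b ^ m ∈ A) ∧
    ∀ y : Y, ∃ j : ℕ, y ^ p ^ j ∈ B

theorem Ser.of_injective {Z : Type*} [Group Z] (f : Z →* Y) (hf : Function.Injective f) (h : Ser p Y) : Ser p Z := by
  obtain ⟨A, B, hA, hB, hAp, hBB, hBA, hYB⟩ := h
  refine ⟨A.comap f, B.comap f, inferInstance, inferInstance, ?_, ?_, ?_, ?_⟩
  · exact hAp.comap_of_injective f hf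
  · rw [← Subgroup.map_le_iff_le_comap, Subgroup.map_commutator]
    exact (Subgroup.commutator_mono (Subgroup.map_comap_le _ _) (Subgroup.map_comap_le _ _)).trans hBB
  · intro b hb
    obtain ⟨m, hm, hmb⟩ := hBA (f b) hb
    exact ⟨m, hm, by rw [Subgroup.mem_comap, map_pow]; exact hmb⟩
  · intro y
    obtain ⟨j, hj⟩ := hYB (f y)
    exact ⟨j, by rw [Subgroup.mem_comap, map_pow]; exact hj⟩

theorem Ser.of_surjective {Z : Type*} [Group Z] (f : Y →* Z) (hf : Function.Surjective f) (h : Ser p Y) : Ser p Z := by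
  obtain ⟨A, B, hA, hB, hAp, hBB, hBA, hYB⟩ := h
  refine ⟨A.map f, B.map f, hA.map f hf, hB.map f hf, hAp.map f, ?_, ?_, ?_⟩
  · rw [← Subgroup.map_commutator]
    exact Subgroup.map_mono hBB
  · rintro _ ⟨b, hb, rfl⟩
    obtain ⟨m, hm, hmb⟩ := hBA b hb
    exact ⟨m, hm, by rw [← map_pow]; exact ⟨_, hmb, rfl⟩⟩
  · intro z
    obtain ⟨y, rfl⟩ := hf z
    obtain ⟨j, hj⟩ := hYB y
    exact ⟨j, by rw [← map_pow]; exact ⟨_, hj, rfl⟩⟩

end defs

section core

variable {Y : Type u} [Group Y] {p : ℕ} [hp : Fact p.Prime]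

/-- quadratic elements induce `p`-elements -/
theorem exists_pow_centralizes [Finite Y] {P : Subgroup Y} (hP : IsPGroup p P) {g : Y}
    (hgP : g ∈ Subgroup.normalizer (P : Set Y))
    (hg : ⁅⁅P, Subgroup.zpowers g⁆, Subgroup.zpowers g⁆ = ⊥) : ∃ j : ℕ, g ^ p ^ j ∈ Subgroup.centralizer (P : Set Y) := by
  obtain ⟨j, hj⟩ := IsPGroup.iff_card.1 hP
  refine ⟨j, ?_⟩
  rw [Subgroup.mem_centralizer_iff]
  intro x hx
  set c := ⁅x⁻¹, g⁆ with hc
  have hcP : c ∈ P := by
    have h1 : c = x⁻¹ * (g * x * g⁻¹) := by rw [hc, commutatorElement_def]; group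
    rw [h1]
    exact P.mul_mem (P.inv_mem hx) ((Subgroup.mem_normalizer_iff.1 hgP x).1 hx)
  have hcg : c * g = g * c := by
    rw [← commutatorElement_eq_one_iff_mul_comm, ← Subgroup.mem_bot, ← hg]
    exact Subgroup.commutator_mem_commutator (Subgroup.commutator_mem_commutator (P.inv_mem hx) (Subgroup.mem_zpowers g))
      (Subgroup.mem_zpowers g)
  have h2 : ∀ n : ℕ, g ^ n * x * (g ^ n)⁻¹ = x * c ^ n := by
    intro n
    induction n with
    | zero => simp
    | succ n ih =>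
      have h3 : g * x * g⁻¹ = x * c := by rw [hc, commutatorElement_def]; group
      have h4 : g * c ^ n * g⁻¹ = c ^ n := by
        have : Commute g (c ^ n) := (show Commute g c from hcg.symm).pow_right n
        rw [this.eq, mul_inv_cancel_right]
      calc g ^ (n + 1) * x * (g ^ (n + 1))⁻¹ = g * (g ^ n * x * (g ^ n)⁻¹) * g⁻¹ := by rw [pow_succ']; group
        _ = (g * x * g⁻¹) * (g * c ^ n * g⁻¹) := by rw [ih]; group
        _ = x * c ^ (n + 1) := by rw [h3, h4, pow_succ']; group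
  have h5 : c ^ p ^ j = 1 := by
    have h6 : (⟨c, hcP⟩ : P) ^ Nat.card P = 1 := pow_card_eq_one'
    rw [hj] at h6
    exact congrArg Subtype.val h6
  have h6 := h2 (p ^ j)
  rw [h5, mul_one] at h6
  calc x * g ^ p ^ j = g ^ p ^ j * x * (g ^ p ^ j)⁻¹ * g ^ p ^ j := by rw [h6]
    _ = g ^ p ^ j * x := by group

/-- the elements centralizing all chief factors inside `P` -/
def DD (P : Subgroup Y) : Subgroup Y where
  carrier := {y | ∀ U V : Subgroup Y, IsChiefFactor U V → U ≤ P → ∀ u ∈ U, ⁅y, u⁆ ∈ V}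
  one_mem' := by
    intro U V h hU u hu
    rw [commutatorElement_one_left]; exact one_mem _
  mul_mem' := by
    intro a b ha hb U V h hU
    have := h.2.1
    have := h.2.2.1
    rw [← mem_ker_act]
    exact mul_mem ((mem_ker_act U V).2 (ha U V h hU)) ((mem_ker_act U V).2 (hb U V h hU))
  inv_mem' := by
    intro a ha U V h hU
    have := h.2.1
    have := h.2.2.1
    rw [← mem_ker_act]
    exact inv_mem ((mem_ker_act U V).2 (ha U V h hU))

omit hp in
theorem mem_DD {P : Subgroup Y} {y : Y} :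
    y ∈ DD P ↔ ∀ U V : Subgroup Y, IsChiefFactor U V → U ≤ P → ∀ u ∈ U, ⁅y, u⁆ ∈ V := Iff.rfl

instance DD_normal (P : Subgroup Y) : (DD P).Normal := by
  refine ⟨fun y hy x => ?_⟩
  rw [mem_DD] at hy ⊢
  intro U V h hU
  have := h.2.1
  have := h.2.2.1
  rw [← mem_ker_act]
  have hn : (act U V).ker.Normal := inferInstance
  exact hn.conj_mem _ ((mem_ker_act U V).2 (hy U V h hU)) x

omit hp in
theorem centralizer_le_DD (P : Subgroup Y) : Subgroup.centralizer (P : Set Y) ≤ DD P := by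
  intro y hy
  rw [mem_DD]
  intro U V h hU u hu
  have h1 := Subgroup.mem_centralizer_iff.1 hy u (hU hu)
  rw [(commutatorElement_eq_one_iff_mul_comm).2 h1.symm]
  exact one_mem _

theorem DD_pow [Finite Y] {P : Subgroup Y} [hPn : P.Normal] (hP : IsPGroup p P) {d : Y} (hd : d ∈ DD P) :
    ∃ j : ℕ, d ^ p ^ j ∈ Subgroup.centralizer (P : Set Y) := by
  obtain ⟨k, hk⟩ := SylowAux.exists_ppart hp.out d
  refine ⟨k, ?_⟩
  have hd' : d ^ p ^ k ∈ DD P := (DD P).pow_mem hd _
  have h1 := Chief.commutator_mem_of_chief (M := P) (Z := ⊥) hPn inferInstance bot_le hP hk (fun U V h _ hU u hu => by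
    have h2 := mem_DD.1 hd' U V h hU u hu
    have h3 := V.inv_mem h2
    rwa [commutatorElement_inv] at h3)
  rw [Subgroup.mem_centralizer_iff]
  intro x hx
  have := Subgroup.mem_bot.1 (h1 x hx)
  rwa [commutatorElement_eq_one_iff_mul_comm] at this

omit hp in
theorem le_DD [Finite Y] [hp : Fact p.Prime] {P A : Subgroup Y} [hPn : P.Normal] (hP : IsPGroup p P) (hAn : A.Normal)
    (hA : IsPGroup p A) : A ≤ DD P := by
  intro a ha
  rw [mem_DD]
  intro U V h hU u hu
  have h1 := Chief.commutator_le_of_chief h (T := pCore p Y) inferInstance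
    (H52.PCore.isPGroup_pCore (p := p) (G := Y)).isNilpotent (hU.trans (H52.PCore.le_pCore hPn hP))
  apply h1
  rw [Subgroup.commutator_comm]
  exact Subgroup.commutator_mem_commutator (H52.PCore.le_pCore hAn hA ha) hu

theorem core [Finite Y] (hp2 : p ≠ 2) (hY : Ser p Y) {P : Subgroup Y} [hPn : P.Normal] (hP : IsPGroup p P) {g : Y}
    (hg : ⁅⁅P, Subgroup.zpowers g⁆, Subgroup.zpowers g⁆ = ⊥) :
    ∃ K : Subgroup Y, K.Normal ∧ g ∈ K ∧ ∀ k ∈ K, ∃ j : ℕ, k ^ p ^ j ∈ Subgroup.centralizer (P : Set Y) := by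
  obtain ⟨A, B, hA, hB, hAp, hBB, hBA, hYB⟩ := hY
  have hAD : A ≤ DD P := le_DD hP hA hAp
  -- `⁅g, B⁆ ≤ D`
  have hgB : ∀ b ∈ B, ⁅g, b⁆ ∈ DD P := by
    intro b hb
    rw [mem_DD]
    intro U V h hU
    have hUn := h.2.1
    have hVn := h.2.2.1
    have hAker : A ≤ (act U V).ker := fun a ha => (mem_ker_act U V).2 (mem_DD.1 (hAD ha) U V h hU)
    have hUO : U ≤ pCore p Y := hU.trans (H52.PCore.le_pCore hPn hP)
    have hUU : ⁅U, U⁆ ≤ V := (Subgroup.commutator_mono le_rfl hUO).trans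
      (Chief.commutator_le_of_chief h (T := pCore p Y) inferInstance
        (H52.PCore.isPGroup_pCore (p := p) (G := Y)).isNilpotent hUO)
    have hUp : ∀ u ∈ U, u ^ p ∈ V := Chief.pow_mem_of_chief h (hP.to_le hU)
    have hiter : iterCommutator U (Subgroup.zpowers g) (p - 1) ≤ V := by
      have h2 : 2 ≤ p - 1 := by
        have := hp.out.two_le
        omega
      refine (Degree.iter_anti (N := U) (H := Subgroup.zpowers g) ?_ h2).trans ?_
      · rw [Subgroup.normalizer_eq_top]; exact le_top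
      · show ⁅⁅U, Subgroup.zpowers g⁆, Subgroup.zpowers g⁆ ≤ V
        refine (Subgroup.commutator_mono (Subgroup.commutator_mono hU le_rfl) le_rfl).trans ?_
        rw [hg]; exact bot_le
    have hmain := norm_eq_one hUU hUp hiter (B.map (act U V)) (by
      rintro _ ⟨k, hk, rfl⟩ _ ⟨l, hl, rfl⟩
      have h1 : act U V ⁅k, l⁆ = 1 := hAker (hBB (Subgroup.commutator_mem_commutator hk hl))
      rwa [map_commutatorElement, commutatorElement_eq_one_iff_mul_comm] at h1) (by
      rw [Nat.coprime_comm, Nat.Prime.coprime_iff_not_dvd hp.out]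
      intro hd
      obtain ⟨⟨_, x, hx, rfl⟩, hxo⟩ := exists_prime_orderOf_dvd_card' p hd
      obtain ⟨m, hm, hmx⟩ := hBA x hx
      have h1 : (⟨act U V x, ⟨x, hx, rfl⟩⟩ : ↥(B.map (act U V))) ^ m = 1 := by
        apply Subtype.ext
        show (act U V x) ^ m = 1
        rw [← map_pow]
        exact hAker hmx
      have h2 := orderOf_dvd_of_pow_eq_one h1
      rw [hxo] at h2
      exact (Nat.Prime.coprime_iff_not_dvd hp.out).1 hm.symm h2) (by
      rintro _ ⟨k, hk, rfl⟩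
      refine ⟨g⁻¹ * k * g, ?_, by simp⟩
      have := hB.conj_mem k hk g⁻¹
      rwa [inv_inv] at this)
    rw [← mem_ker_act, MonoidHom.mem_ker, map_commutatorElement, commutatorElement_eq_one_iff_mul_comm]
    exact hmain _ ⟨b, hb, rfl⟩
  -- pass to `Y / D`
  set D := DD P with hD
  set f := QuotientGroup.mk' D with hf
  have hfs : Function.Surjective f := QuotientGroup.mk'_surjective D
  obtain ⟨i, hi⟩ := exists_pow_centralizes hP (by rw [Subgroup.normalizer_eq_top]; trivial) hg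
  have hfg : (f g) ^ p ^ i = 1 := by
    rw [← map_pow]
    exact (QuotientGroup.eq_one_iff _).2 (centralizer_le_DD P hi)
  have hzp : IsPGroup p (Subgroup.zpowers (f g)) := by
    rintro ⟨_, n, rfl⟩
    refine ⟨i, Subtype.ext ?_⟩
    show ((f g) ^ n) ^ p ^ i = 1
    rw [← zpow_natCast, ← zpow_mul, mul_comm, zpow_mul, zpow_natCast, hfg, one_zpow]
  obtain ⟨T, hT⟩ := hzp.exists_le_sylow
  have hgT : f g ∈ (T : Subgroup (Y ⧸ D)) := hT (Subgroup.mem_zpowers _)
  set B' := B.map f with hB'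
  have hB'n : B'.Normal := hB.map f hfs
  have hTB : (T : Subgroup (Y ⧸ D)) ⊔ B' = ⊤ := by
    rw [← Subgroup.index_eq_one]
    have h0 : IsPGroup p ((Y ⧸ D) ⧸ B') := by
      intro z
      obtain ⟨z, rfl⟩ := QuotientGroup.mk'_surjective B' z
      obtain ⟨y, rfl⟩ := hfs z
      obtain ⟨j, hj⟩ := hYB y
      refine ⟨j, ?_⟩
      rw [← map_pow, ← map_pow]
      exact (QuotientGroup.eq_one_iff _).2 ⟨_, hj, rfl⟩
    obtain ⟨j, hj⟩ := IsPGroup.iff_card.1 h0
    rw [← Subgroup.index_eq_card] at hj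
    have h1 : ((T : Subgroup (Y ⧸ D)) ⊔ B').index ∣ (T : Subgroup (Y ⧸ D)).index := Subgroup.index_dvd_of_le le_sup_left
    have h2 : ((T : Subgroup (Y ⧸ D)) ⊔ B').index ∣ p ^ j := by
      rw [← hj]
      exact Subgroup.index_dvd_of_le le_sup_right
    have h3 : (p ^ j).Coprime (T : Subgroup (Y ⧸ D)).index :=
      Nat.Coprime.pow_left j ((Nat.Prime.coprime_iff_not_dvd hp.out).2 T.not_dvd_index)
    exact Nat.eq_one_of_dvd_coprimes h3 h2 h1
  set Q := (T : Subgroup (Y ⧸ D)) ⊓ Subgroup.centralizer (B' : Set (Y ⧸ D)) with hQ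
  have hQn : Q.Normal := by
    rw [← Subgroup.normalizer_eq_top_iff, ← top_le_iff, ← hTB]
    refine sup_le ?_ ?_
    · rw [hQ]
      refine le_trans ?_ (Comm.inf_normalizer_le _ _)
      refine le_inf Subgroup.le_normalizer ?_
      rw [Subgroup.normalizer_eq_top]; exact le_top
    · intro k hk
      rw [mem_normalizer_iff']
      apply Subgroup.eq_of_le_of_card_ge
      · rintro _ ⟨x, hx, rfl⟩
        show k * x * k⁻¹ ∈ Q
        rw [Subgroup.mem_centralizer_iff.1 (Subgroup.mem_inf.1 hx).2 _ hk, mul_inv_cancel_right]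
        exact hx
      · rw [card_conj]
  refine ⟨Q.comap f, inferInstance, ?_, ?_⟩
  · rw [Subgroup.mem_comap]
    refine Subgroup.mem_inf.2 ⟨hgT, ?_⟩
    rw [Subgroup.mem_centralizer_iff]
    rintro _ ⟨b, hb, rfl⟩
    have h2 : f ⁅g, b⁆ = 1 := (QuotientGroup.eq_one_iff _).2 (hgB b hb)
    rw [map_commutatorElement, commutatorElement_eq_one_iff_mul_comm] at h2
    exact h2.symm
  · intro k hk
    obtain ⟨j, hj⟩ := T.2 ⟨f k, (Subgroup.mem_inf.1 hk).1⟩
    have hj' : (f k) ^ p ^ j = 1 := congrArg Subtype.val hj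
    rw [← map_pow] at hj'
    obtain ⟨l, hl⟩ := DD_pow hP ((QuotientGroup.eq_one_iff _).1 hj')
    refine ⟨j + l, ?_⟩
    rw [pow_add, pow_mul]
    exact hl

theorem Ser.stab [Finite Y] (hp2 : p ≠ 2) (hY : Ser p Y) : Stab p Y := by
  intro P hP g hg hq
  set N := Subgroup.normalizer (P : Set Y) with hN
  have hPN : P ≤ N := Subgroup.le_normalizer
  have hPn : (P.subgroupOf N).Normal := Subgroup.normal_subgroupOf_of_le_normalizer le_rfl
  have hPmap : (P.subgroupOf N).map N.subtype = P := Subgroup.map_subgroupOf_eq_of_le hPN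
  have hPp : IsPGroup p (P.subgroupOf N) := hP.comap_subtype
  have hzmap : (Subgroup.zpowers (⟨g, hg⟩ : N)).map N.subtype = Subgroup.zpowers g := MonoidHom.map_zpowers _ _
  obtain ⟨K, hKn, hgK, hK⟩ := core (Y := ↥N) hp2 (hY.of_injective N.subtype N.subtype_injective) (P := P.subgroupOf N) hPp
    (g := ⟨g, hg⟩) (by
      apply (Subgroup.map_eq_bot_iff_of_injective _ N.subtype_injective).1
      rw [Subgroup.map_commutator, Subgroup.map_commutator, hPmap, hzmap, hq])
  refine ⟨K.map N.subtype, ⟨⟨g, hg⟩, hgK, rfl⟩, Subgroup.map_subtype_le _, ?_, ?_⟩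
  · intro x hx
    rw [mem_normalizer_iff']
    apply Subgroup.eq_of_le_of_card_ge
    · rintro _ ⟨_, ⟨k, hk, rfl⟩, rfl⟩
      exact ⟨⟨x, hx⟩ * k * ⟨x, hx⟩⁻¹, hKn.conj_mem k hk ⟨x, hx⟩, rfl⟩
    · rw [card_conj]
  · rintro _ ⟨k, hk, rfl⟩
    obtain ⟨j, hj⟩ := hK k hk
    refine ⟨j, ?_⟩
    rw [Subgroup.mem_centralizer_iff] at hj ⊢
    intro x hx
    exact congrArg Subtype.val (hj ⟨x, hPN hx⟩ hx)

end core

end H39.Ser
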