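import Mathlib
import Cfsg.Agent.Lib.H39.Ser
import Cfsg.Agent.Lib.H39.SFNpc
import Cfsg.Agent.Lib.H39.ThomInd

set_option autoImplicit false

/-!
Minimal counterexamples to Thompson's criterion are `p`-by-abelian `p'`-by-`p`.
-/

namespace H39.SerThom

open Cfsg H38.Basic H39.ThomAb H39.Ser
open scoped commutatorElement

universe u

variable {X : Type u} [Group X] [Finite X] {p : ℕ} [hp : Fact p.Prime]

theorem ser_of_coatom (T : Sylow p X) (hTc : IsCoatom (T : Subgroup X)) (hNPC : HasNormalPComplement p (X ⧸ pCore p X)) :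
    Ser p X := by
  set H := pCore p X with hH
  have hHn : H.Normal := inferInstance
  have hHp : IsPGroup p H := H52.PCore.isPGroup_pCore
  have hHT : H ≤ (T : Subgroup X) := H52.PCore.pCore_le_sylow T
  obtain ⟨K', hK'n, hK'co, j, hK'i⟩ := PNilp.iff_exists.1 hNPC
  set f := QuotientGroup.mk' H with hf
  have hfs : Function.Surjective f := QuotientGroup.mk'_surjective H
  have hT'c : IsCoatom ((T : Subgroup X).map f) := by
    refine ⟨fun h => hTc.1 ?_, fun M hM => ?_⟩
    · rw [← Subgroup.comap_map_eq_self (f := f) (H := (T : Subgroup X)) (by rw [hf, QuotientGroup.ker_mk']; exact hHT), h,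
        Subgroup.comap_top]
    · have h1 : (T : Subgroup X) < M.comap f := by
        refine lt_of_le_of_ne (Subgroup.map_le_iff_le_comap.1 hM.le) fun h => hM.ne ?_
        rw [h, Subgroup.map_comap_eq_self_of_surjective hfs]
      have h2 := hTc.2 _ h1
      rw [← Subgroup.map_comap_eq_self_of_surjective hfs M, h2, Subgroup.map_top_of_surjective _ hfs]
  have hK'comm := comm_of_coatom (T.2.map f) hT'c hK'co hK'n
  refine ⟨H, K'.comap f, hHn, inferInstance, hHp, ?_, ?_, ?_⟩
  · rw [Subgroup.commutator_le]
    intro k hk l hl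
    rw [← QuotientGroup.eq_one_iff]
    change f ⁅k, l⁆ = 1
    rw [map_commutatorElement, commutatorElement_eq_one_iff_mul_comm]
    exact hK'comm _ hk _ hl
  · intro b hb
    refine ⟨Nat.card K', hK'co, ?_⟩
    rw [← QuotientGroup.eq_one_iff]
    change f (b ^ Nat.card K') = 1
    have h1 : (⟨f b, hb⟩ : K') ^ Nat.card K' = 1 := pow_card_eq_one'
    rw [map_pow]
    exact congrArg Subtype.val h1
  · intro y
    refine ⟨j, ?_⟩
    rw [Subgroup.mem_comap, map_pow, ← hK'i]
    exact Subgroup.pow_index_mem K' (f y)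

theorem stable_sections (hp2 : p ≠ 2) (h : Ser p X) (K R : Subgroup X) [(R.subgroupOf K).Normal] :
    IsNormalizerPStable p (↥K ⧸ R.subgroupOf K) := by
  rw [PStab.pstab_iff]
  exact ((h.of_injective K.subtype K.subtype_injective).of_surjective (QuotientGroup.mk' (R.subgroupOf K))
    (QuotientGroup.mk'_surjective _)).stab hp2

end H39.SerThom
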