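import Mathlib
import Cfsg.Prelude.Def_PLocal
import Cfsg.Prelude.Def_LocalEven
import Cfsg.Prelude.Def_TwoFusion
import Cfsg.Agent.Lib.H39.Sect
import Cfsg.Agent.Lib.H39.MinFail
import Cfsg.Agent.Lib.H39.SFMin
import Cfsg.Agent.S1996

set_option autoImplicit false

/-!
Triple factorizations.
-/

namespace H39.Triple

open Cfsg H38.Basic H38.Alperin H38.FamilyControl H39.Sect H39.MinFail
open scoped commutatorElement

universe u

variable {G : Type u} [Group G] [Finite G] {p : ℕ} [hp : Fact p.Prime]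

/-- `Ω₁(Z(S))` -/
abbrev OZ (p : ℕ) {G : Type u} [Group G] (S : Subgroup G) : Subgroup G :=
  omegaOne p (S ⊓ Subgroup.centralizer (S : Set G))

omit [Finite G] in
theorem OZ_map_le {X : Type u} [Group X] (f : X →* G) (S : Subgroup X) : (OZ p S).map f ≤ OZ p (S.map f) := by
  rw [OZ, OZ, omegaOne, omegaOne, MonoidHom.map_closure, Subgroup.closure_le]
  rintro _ ⟨x, ⟨hx, hxp⟩, rfl⟩
  obtain ⟨hx1, hx2⟩ := Subgroup.mem_inf.1 hx
  apply Subgroup.subset_closure
  refine ⟨Subgroup.mem_inf.2 ⟨⟨x, hx1, rfl⟩, ?_⟩, by rw [← map_pow, hxp, map_one]⟩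
  rw [Subgroup.mem_centralizer_iff]
  rintro _ ⟨s, hs, rfl⟩
  rw [← map_mul, Subgroup.mem_centralizer_iff.1 hx2 s hs, map_mul]

omit [Finite G] in
theorem OZ_le (S : Subgroup G) : OZ p S ≤ S ⊓ Subgroup.centralizer (S : Set G) :=
  (Subgroup.closure_le _).2 fun _ hx => hx.1

theorem factor_normalizer {W' : ∀ (Q : Type u) [Group Q], Subgroup Q} (hW' : IsCharPFunctor.{u} p W') (S : Sylow p G)
    {V : Subgroup G} (hVS : V ≤ (S : Subgroup G)) (hSV : (S : Subgroup G) ≤ Subgroup.normalizer (V : Set G))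
    (hZV : OZ p (S : Subgroup G) ≤ V)
    (hfac : ∀ (K R : Subgroup G) [(R.subgroupOf K).Normal],
      Subgroup.centralizer ((pCore p (↥K ⧸ R.subgroupOf K) : Subgroup (↥K ⧸ R.subgroupOf K)) : Set (↥K ⧸ R.subgroupOf K)) ≤
        pCore p (↥K ⧸ R.subgroupOf K) → ∀ T : Sylow p (↥K ⧸ R.subgroupOf K), ∀ x : (↥K ⧸ R.subgroupOf K),
        ∃ a ∈ Subgroup.centralizer ((OZ p (T : Subgroup (↥K ⧸ R.subgroupOf K)) : Subgroup (↥K ⧸ R.subgroupOf K)) :
          Set (↥K ⧸ R.subgroupOf K)),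
        ∃ b ∈ Subgroup.normalizer ((inducedFunctor (G := (↥K ⧸ R.subgroupOf K)) W' (T : Subgroup (↥K ⧸ R.subgroupOf K)) :
          Subgroup (↥K ⧸ R.subgroupOf K)) : Set (↥K ⧸ R.subgroupOf K)), x = a * b) :
    ∀ n ∈ Subgroup.normalizer (V : Set G), ∃ a ∈ Subgroup.centralizer ((OZ p (S : Subgroup G) : Subgroup G) : Set G),
      ∃ b ∈ Subgroup.normalizer (V : Set G) ⊓
        Subgroup.normalizer ((inducedFunctor W' (S : Subgroup G) : Subgroup G) : Set G), n = a * b := by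
  set Z := OZ p (S : Subgroup G) with hZ
  set N := Subgroup.normalizer (V : Set G) with hN
  set D := Subgroup.centralizer (V : Set G) with hD
  have hDN : D ≤ N := Subgroup.centralizer_le_normalizer _
  have hND : N ≤ Subgroup.normalizer (D : Set G) := Comm.normalizer_le_normalizer_centralizer V
  have hSN : IsSyl p (S : Subgroup G) N := (isSyl_sylow S).of_le hSV le_top
  set T₀ := (S : Subgroup G) ⊓ D with hT₀
  have hT₀s : IsSyl p T₀ D := hSN.inf_normal hDN hND
  set M := N ⊓ Subgroup.normalizer (T₀ : Set G) with hM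
  have hST₀ : (S : Subgroup G) ≤ Subgroup.normalizer (T₀ : Set G) := by
    rw [hT₀]
    exact le_trans (le_inf Subgroup.le_normalizer (hSV.trans hND)) (Comm.inf_normalizer_le _ _)
  have hSM : (S : Subgroup G) ≤ M := le_inf hSV hST₀
  set Q := V ⊔ T₀ with hQ
  have hQS : Q ≤ (S : Subgroup G) := sup_le hVS inf_le_left
  have hMQ : M ≤ Subgroup.normalizer (Q : Set G) := by
    intro m hm
    obtain ⟨h1, h2⟩ := Subgroup.mem_inf.1 hm
    rw [mem_normalizer_iff'] at h1 h2 ⊢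
    rw [hQ, conj_sup, h1, h2]
  set C := Subgroup.centralizer (Q : Set G) with hC
  have hCD : C ≤ D := Subgroup.centralizer_le (show (V : Subgroup G) ≤ Q from le_sup_left)
  have hCM : C ≤ M := le_inf (hCD.trans hDN)
    ((Subgroup.centralizer_le (show (T₀ : Subgroup G) ≤ Q from le_sup_right)).trans (Subgroup.centralizer_le_normalizer _))
  have hMC : M ≤ Subgroup.normalizer (C : Set G) := hMQ.trans (Comm.normalizer_le_normalizer_centralizer Q)
  have hSCs : IsSyl p ((S : Subgroup G) ⊓ C) C := ((isSyl_sylow S).of_le hSM le_top).inf_normal hCM hMC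
  have hSCQ : (S : Subgroup G) ⊓ C ≤ Q := by
    refine le_trans ?_ (le_sup_right : T₀ ≤ Q)
    exact inf_le_inf_left _ hCD
  have hcent : C ≤ Subgroup.centralizer (((S : Subgroup G) ⊓ C : Subgroup G) : Set G) := Subgroup.centralizer_le hSCQ
  obtain ⟨K₀, hK1, hK2, hK3⟩ := H38.PPrime.exists_complement_of_central hSCs hcent
  have hK₀C : K₀ ≤ C := fun x hx => ((hK1 x).1 hx).1
  have hK₀M : K₀ ≤ M := hK₀C.trans hCM
  set R := K₀.subgroupOf M with hR
  have hRn : R.Normal := by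
    refine ⟨fun x hx g => ?_⟩
    rw [hR, Subgroup.mem_subgroupOf, hK1] at hx ⊢
    refine ⟨?_, ?_⟩
    · have := (mem_normalizer_iff'.1 (hMC g.2))
      rw [← this]
      exact ⟨(x : G), hx.1, rfl⟩
    · show (orderOf ((g : G) * (x : G) * (g : G)⁻¹)).Coprime p
      rw [H38.PPrime.orderOf_conj]
      exact hx.2
  have hRco : (Nat.card R).Coprime p := by
    rw [hR, Nat.card_congr (Subgroup.subgroupOfEquivOfLe hK₀M).toEquiv]; exact hK2
  set f := QuotientGroup.mk' R with hf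
  have hfs : Function.Surjective f := QuotientGroup.mk'_surjective R
  -- the Sylow subgroup of `M`
  have hSsM : IsSyl p (S : Subgroup G) M := (isSyl_sylow S).of_le hSM le_top
  let S' : Sylow p ↥M := hSsM.toSylow
  have hS'map : (S' : Subgroup ↥M).map M.subtype = (S : Subgroup G) := hSsM.map_toSylow
  have hS'def : (S' : Subgroup ↥M) = (S : Subgroup G).subgroupOf M := rfl
  -- the quotient is constrained
  have hQM : Q ≤ M := hQS.trans hSM
  have hQ'p : IsPGroup p (Q.subgroupOf M) := (S.2.to_le hQS).comap_subtype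
  have hQn : (Q.subgroupOf M).Normal := Subgroup.normal_subgroupOf_of_le_normalizer hMQ
  have hQcore : (Q.subgroupOf M).map f ≤ pCore p (↥M ⧸ R) := H52.PCore.le_pCore (hQn.map f hfs) (hQ'p.map f)
  have hconstr : Subgroup.centralizer ((pCore p (↥M ⧸ R) : Subgroup (↥M ⧸ R)) : Set (↥M ⧸ R)) ≤ pCore p (↥M ⧸ R) := by
    refine (Subgroup.centralizer_le hQcore).trans (le_trans ?_ hQcore)
    rw [H66.CoprimeConj.centralizer_map_mk' R hRco _ hQ'p]
    rintro _ ⟨x, hx, rfl⟩
    have hxC : (x : G) ∈ C := by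
      rw [hC, Subgroup.mem_centralizer_iff]
      intro q hq
      exact congrArg Subtype.val (Subgroup.mem_centralizer_iff.1 hx ⟨q, hQM hq⟩ hq)
    obtain ⟨t, ht, k, hk, htk⟩ := hK3 _ hxC
    refine ⟨⟨t, hQM (hSCQ ht)⟩, hSCQ ht, ?_⟩
    have h1 : x = ⟨t, hQM (hSCQ ht)⟩ * ⟨k, hK₀M hk⟩ := Subtype.ext htk
    rw [h1, map_mul]
    have : f ⟨k, hK₀M hk⟩ = 1 := (QuotientGroup.eq_one_iff _).2 hk
    rw [this, mul_one]
  -- the factorization of `M`
  have hfacM : ∀ m ∈ M, ∃ a ∈ Subgroup.centralizer (Z : Set G),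
      ∃ b ∈ M ⊓ Subgroup.normalizer ((inducedFunctor W' (S : Subgroup G) : Subgroup G) : Set G), m = a * b := by
    intro m hm
    let T : Sylow p (↥M ⧸ R) := S'.mapSurjective hfs
    have hTmap : (T : Subgroup (↥M ⧸ R)) = (S' : Subgroup ↥M).map f := Sylow.coe_mapSurjective _ _
    obtain ⟨a', ha', b', hb', hab⟩ := hfac M K₀ hconstr T (f ⟨m, hm⟩)
    have hS'OZ : (OZ p (S' : Subgroup ↥M)).map f ≤ OZ p (T : Subgroup (↥M ⧸ R)) := by
      rw [hTmap]; exact OZ_map_le f _
    have hOZp : IsPGroup p (OZ p (S' : Subgroup ↥M)) := S'.2.to_le ((OZ_le _).trans inf_le_left)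
    have ha1 : a' ∈ (Subgroup.centralizer ((OZ p (S' : Subgroup ↥M) : Subgroup ↥M) : Set ↥M)).map f := by
      rw [← H66.CoprimeConj.centralizer_map_mk' R hRco _ hOZp]
      exact Subgroup.centralizer_le hS'OZ ha'
    have hb1 : b' ∈ (Subgroup.normalizer ((inducedFunctor W' (S' : Subgroup ↥M) : Subgroup ↥M) : Set ↥M)).map f := by
      have hdisj : R ⊓ (S' : Subgroup ↥M) = ⊥ := H66.CoprimeConj.disjoint_of_coprime_pgroup R _ hRco S'.2
      rw [← H66.CoprimeConj.normalizer_map_mk' R hRco _ (S'.2.to_le (ind_le W' _)), ← ind_map' hW' _ S'.2, ← hTmap]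
      · exact hb'
      · intro x hx hx1
        have hxR : x ∈ R := (QuotientGroup.eq_one_iff x).1 hx1
        have : x ∈ R ⊓ (S' : Subgroup ↥M) := Subgroup.mem_inf.2 ⟨hxR, hx⟩
        rwa [hdisj] at this
    obtain ⟨a, ha, rfl⟩ := ha1
    obtain ⟨b, hb, rfl⟩ := hb1
    rw [← map_mul] at hab
    have h1 : (a * b)⁻¹ * ⟨m, hm⟩ ∈ R := QuotientGroup.eq.1 hab.symm
    set k := (a * b)⁻¹ * ⟨m, hm⟩ with hk
    have h2 : b * k * b⁻¹ ∈ R := hRn.conj_mem _ h1 b
    have hZle : ∀ z ∈ Z, ∀ y : ↥M, y ∈ Subgroup.centralizer ((OZ p (S' : Subgroup ↥M) : Subgroup ↥M) : Set ↥M) →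
        z * (y : G) = y * z := by
      intro z hz y hy
      have h3 : Z ≤ Subgroup.centralizer ((Subgroup.zpowers (y : G) : Subgroup G) : Set G) := by
        rw [hZ, OZ, omegaOne, Subgroup.closure_le]
        rintro w ⟨hw, hwp⟩
        obtain ⟨hw1, hw2⟩ := Subgroup.mem_inf.1 hw
        have h4 : (⟨w, hSM hw1⟩ : ↥M) ∈ OZ p (S' : Subgroup ↥M) := by
          apply Subgroup.subset_closure
          refine ⟨Subgroup.mem_inf.2 ⟨hw1, ?_⟩, Subtype.ext hwp⟩
          rw [Subgroup.mem_centralizer_iff]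
          intro s hs
          exact Subtype.ext (Subgroup.mem_centralizer_iff.1 hw2 _ hs)
        have h5 := congrArg Subtype.val (Subgroup.mem_centralizer_iff.1 hy _ h4)
        have h6 : Commute w (y : G) := h5
        show w ∈ Subgroup.centralizer ((Subgroup.zpowers (y : G) : Subgroup G) : Set G)
        rw [Subgroup.mem_centralizer_iff]
        rintro _ ⟨n, rfl⟩
        exact (h6.zpow_right n).eq.symm
      exact (Subgroup.mem_centralizer_iff.1 (h3 hz) _ (Subgroup.mem_zpowers (y : G))).symm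
    refine ⟨(a : G) * (b * k * b⁻¹ : ↥M), ?_, (b : G), ?_, ?_⟩
    · apply mul_mem
      · rw [Subgroup.mem_centralizer_iff]
        intro z hz
        exact hZle z hz a ha
      · have h3 : ((b * k * b⁻¹ : ↥M) : G) ∈ C := hK₀C h2
        exact Subgroup.centralizer_le (hZV.trans le_sup_left) h3
    · refine Subgroup.mem_inf.2 ⟨b.2, ?_⟩
      have h3 : inducedFunctor W' (S : Subgroup G) = (inducedFunctor W' (S' : Subgroup ↥M)).map M.subtype := by
        conv_lhs => rw [← hS'map]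
        exact ind_map hW' M.subtype_injective S'.2
      have h4 := map_inf_normalizer M.subtype_injective ⊤ (inducedFunctor W' (S' : Subgroup ↥M))
      rw [top_inf_eq] at h4
      rw [h3]
      have h5 : (b : G) ∈ (Subgroup.normalizer ((inducedFunctor W' (S' : Subgroup ↥M) : Subgroup ↥M) : Set ↥M)).map M.subtype :=
        ⟨b, hb, rfl⟩
      rw [h4] at h5
      exact (Subgroup.mem_inf.1 h5).2
    · have h3 : (⟨m, hm⟩ : ↥M) = a * (b * k * b⁻¹) * b := by rw [hk]; group
      exact congrArg Subtype.val h3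
  intro n hn
  have hTn : IsSyl p (T₀.map (MulAut.conj n).toMonoidHom) D := by
    have h1 := hT₀s.conj n
    rwa [mem_normalizer_iff'.1 (hND hn)] at h1
  obtain ⟨d, hd, hdn⟩ := hTn.exists_conj_eq hT₀s
  rw [conj_conj] at hdn
  have hdnM : d * n ∈ M := Subgroup.mem_inf.2 ⟨mul_mem (hDN hd) hn, mem_normalizer_iff'.2 hdn⟩
  obtain ⟨a, ha, b, hb, hab⟩ := hfacM _ hdnM
  refine ⟨d⁻¹ * a, mul_mem (inv_mem (Subgroup.centralizer_le hZV hd)) ha, b, ?_, ?_⟩
  · exact Subgroup.mem_inf.2 ⟨(Subgroup.mem_inf.1 (Subgroup.mem_inf.1 hb).1).1, (Subgroup.mem_inf.1 hb).2⟩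
  · rw [mul_assoc, ← hab]; group

end H39.Triple
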