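import Mathlib
import Cfsg.Prelude.Def_ConjugacyFunctors
import Cfsg.Prelude.Def_Transfer
import Cfsg.Prelude.Def_PLocal
import Cfsg.Agent.Lib.H39.Sect

set_option autoImplicit false

/-!
The centre and the (elementary) Thompson subgroup as `p`-group functors.
-/

namespace H39.ZJFun

open Cfsg

universe u

variable {p : ℕ}

theorem char_center [Fact p.Prime] : IsCharPFunctor.{u} p (fun Q _ => Subgroup.center Q) := by
  constructor
  · intro Q _ _ hQ hnt
    have := hQ.center_nontrivial
    exact (Subgroup.nontrivial_iff_ne_bot _).1 this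
  · intro Q R _ _ _ _ φ
    ext x
    constructor
    · rintro ⟨y, hy, rfl⟩
      rw [Subgroup.mem_center_iff]
      intro g
      obtain ⟨h, rfl⟩ := φ.surjective g
      show φ h * φ y = φ y * φ h
      rw [← map_mul, Subgroup.mem_center_iff.1 hy h, map_mul]
    · intro hx
      refine ⟨φ.symm x, ?_, φ.apply_symm_apply x⟩
      show φ.symm x ∈ Subgroup.center Q
      rw [Subgroup.mem_center_iff]
      intro g
      apply φ.injective
      rw [map_mul, map_mul, φ.apply_symm_apply]
      exact Subgroup.mem_center_iff.1 hx _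

theorem map_isElementaryAbelian {Q R : Type u} [Group Q] [Group R] (f : Q →* R) {A : Subgroup Q}
    (hA : IsElementaryAbelian p A) : IsElementaryAbelian p (A.map f) := by
  obtain ⟨h1, h2⟩ := hA
  refine ⟨⟨⟨?_⟩⟩, ?_⟩
  · rintro ⟨_, a, ha, rfl⟩ ⟨_, b, hb, rfl⟩
    apply Subtype.ext
    show f a * f b = f b * f a
    rw [← map_mul, ← map_mul]
    congr 1
    exact congrArg Subtype.val (h1.is_comm.comm ⟨a, ha⟩ ⟨b, hb⟩)
  · rintro _ ⟨a, ha, rfl⟩
    rw [← map_pow, h2 a ha, map_one]

theorem map_thompson {Q R : Type u} [Group Q] [Group R] (φ : Q ≃* R) :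
    (thompsonSubgroup p Q).map φ.toMonoidHom = thompsonSubgroup p R := by
  have key : ∀ {Q R : Type u} [Group Q] [Group R] (φ : Q ≃* R) (A : Subgroup Q),
      A ∈ maxElementaryAbelianSubgroups p Q → A.map φ.toMonoidHom ∈ maxElementaryAbelianSubgroups p R := by
    intro Q R _ _ φ A hA
    refine ⟨map_isElementaryAbelian _ hA.1, fun B hB => ?_⟩
    have h1 := hA.2 _ (map_isElementaryAbelian φ.symm.toMonoidHom hB)
    rw [Nat.card_congr (B.equivMapOfInjective φ.symm.toMonoidHom φ.symm.injective).toEquiv.symm] at h1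
    rwa [Nat.card_congr (A.equivMapOfInjective φ.toMonoidHom φ.injective).toEquiv.symm]
  apply le_antisymm
  · rw [Subgroup.map_le_iff_le_comap]
    refine sSup_le fun A hA => ?_
    rw [← Subgroup.map_le_iff_le_comap]
    exact le_sSup (key φ A hA)
  · refine sSup_le fun B hB => ?_
    have h1 := key φ.symm B hB
    have h2 : B = (B.map φ.symm.toMonoidHom).map φ.toMonoidHom := by
      rw [Subgroup.map_map]
      have : φ.toMonoidHom.comp φ.symm.toMonoidHom = MonoidHom.id _ := by ext y; simp
      rw [this, Subgroup.map_id]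
    rw [h2]
    exact Subgroup.map_mono (le_sSup h1)

theorem isElementaryAbelian_bot {Q : Type u} [Group Q] : IsElementaryAbelian p (⊥ : Subgroup Q) := by
  refine ⟨⟨⟨?_⟩⟩, ?_⟩
  · rintro ⟨a, ha⟩ ⟨b, hb⟩
    rw [Subgroup.mem_bot] at ha hb
    subst ha; subst hb; rfl
  · rintro a ha
    rw [Subgroup.mem_bot] at ha
    rw [ha, one_pow]

theorem exists_max {Q : Type u} [Group Q] [Finite Q] : (maxElementaryAbelianSubgroups p Q).Nonempty := by
  obtain ⟨A, hA, hmax⟩ := Set.exists_max_image {A : Subgroup Q | IsElementaryAbelian p A} (fun A => Nat.card A)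
    (Set.toFinite _) ⟨⊥, isElementaryAbelian_bot⟩
  exact ⟨A, hA, fun B hB => hmax B hB⟩

theorem char_thompson [hp : Fact p.Prime] : IsCharPFunctor.{u} p (fun Q _ => thompsonSubgroup p Q) := by
  constructor
  · intro Q _ _ hQ hnt h
    obtain ⟨A, hA⟩ := exists_max (p := p) (Q := Q)
    have hAbot : A = ⊥ := le_bot_iff.1 ((le_sSup hA).trans (le_of_eq h))
    obtain ⟨x, hx⟩ : ∃ x : Q, orderOf x = p := by
      have hd : p ∣ Nat.card Q := by
        obtain ⟨n, hn⟩ := IsPGroup.iff_card.1 hQ
        have h1 : 1 < Nat.card Q := Finite.one_lt_card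
        rw [hn] at h1 ⊢
        rcases n with _ | n
        · simp at h1
        · exact dvd_pow_self _ (Nat.succ_ne_zero n)
      exact exists_prime_orderOf_dvd_card' p hd
    have hB : IsElementaryAbelian p (Subgroup.zpowers x) := by
      refine ⟨inferInstance, ?_⟩
      rintro _ ⟨k, rfl⟩
      show (x ^ k) ^ p = 1
      rw [← zpow_natCast, ← zpow_mul, mul_comm, zpow_mul, zpow_natCast, ← hx, pow_orderOf_eq_one, one_zpow]
    have h2 := hA.2 _ hB
    rw [hAbot, Subgroup.card_bot, Nat.card_zpowers, hx] at h2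
    exact absurd h2 (not_le.2 hp.out.one_lt)
  · intro Q R _ _ _ _ φ
    exact map_thompson φ

theorem induced_center {G : Type u} [Group G] (P : Subgroup G) :
    inducedFunctor (G := G) (fun Q _ => Subgroup.center Q) P = P ⊓ Subgroup.centralizer ((P : Subgroup G) : Set G) := by
  ext x
  constructor
  · rintro ⟨y, hy, rfl⟩
    refine Subgroup.mem_inf.2 ⟨y.2, ?_⟩
    rw [Subgroup.mem_centralizer_iff]
    intro g hg
    exact congrArg Subtype.val (Subgroup.mem_center_iff.1 hy ⟨g, hg⟩)
  · intro hx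
    obtain ⟨h1, h2⟩ := Subgroup.mem_inf.1 hx
    refine ⟨⟨x, h1⟩, ?_, rfl⟩
    show (⟨x, h1⟩ : ↥P) ∈ Subgroup.center ↥P
    rw [Subgroup.mem_center_iff]
    intro g
    exact Subtype.ext (Subgroup.mem_centralizer_iff.1 h2 _ g.2)

theorem induced_thompson {G : Type u} [Group G] (P : Subgroup G) :
    inducedFunctor (G := G) (fun Q _ => thompsonSubgroup p Q) P = thompsonSubgroupOf p P := rfl

end H39.ZJFun
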